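import Cfsg.Agent.Lib.H96.FrDef

set_option autoImplicit false

/-!
Frame stabilisers: reflections in rational vectors.
-/

open Matrix H96.Fr

namespace H60.FrJ

variable {ι F : Type*} [Fintype ι] [DecidableEq ι] [Field F] {K : Subgroup ((ι → F) ≃ₗ[F] (ι → F))}

theorem rf_rf {w : ι → F} (hw : w ⬝ᵥ w = 1) (x : ι → F) : rf w (rf w x) = x := by
  rw [rf_apply hw, rf_apply hw]
  simp only [sub_dotProduct, smul_dotProduct, hw, smul_eq_mul]
  module

theorem rf_mul_self {w : ι → F} (hw : w ⬝ᵥ w = 1) : rf w * rf w = 1 := by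
  apply LinearEquiv.ext
  intro x
  exact rf_rf hw x

theorem rf_dot {w : ι → F} (hw : w ⬝ᵥ w = 1) (x y : ι → F) : rf w x ⬝ᵥ y = x ⬝ᵥ rf w y := by
  rw [rf_apply hw, rf_apply hw, sub_dotProduct, dotProduct_sub, smul_dotProduct, dotProduct_smul,
    smul_eq_mul, smul_eq_mul, dotProduct_comm w y]
  ring

theorem rf_unit {w v : ι → F} (hw : w ⬝ᵥ w = 1) (hv : v ⬝ᵥ v = 1) : rf w v ⬝ᵥ rf w v = 1 := by
  rw [rf_dot hw, rf_rf hw, hv]

theorem rf_conj {w v : ι → F} (hw : w ⬝ᵥ w = 1) (hv : v ⬝ᵥ v = 1) : rf (rf w v) = rf w * rf v * rf w := by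
  apply LinearEquiv.ext
  intro x
  change rf (rf w v) x = rf w (rf v (rf w x))
  rw [rf_apply (rf_unit hw hv), rf_apply hv (rf w x), map_sub, map_smul, rf_rf hw, rf_dot hw]

theorem phi_rf {w v : ι → F} (hw : Phi K w) (hv : Phi K v) : Phi K (rf w v) := by
  refine ⟨rf_unit hw.1 hv.1, fun j => ?_⟩
  have ej : (e j : ι → F) ⬝ᵥ e j = 1 := by simp [e]
  have h1 : rf (rf w v) * rf (e j) = (rf w * rf (e j)) * (rf v * rf (e j))⁻¹ * (rf w * rf (e j)) := by
    have hi : ∀ u : ι → F, u ⬝ᵥ u = 1 → (rf u)⁻¹ = rf u := fun u hu =>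
      inv_eq_of_mul_eq_one_right (rf_mul_self hu)
    rw [rf_conj hw.1 hv.1, _root_.mul_inv_rev, hi v hv.1, hi _ ej]
    have h2 : rf w * rf (e j) * (rf (e j) * rf v) * (rf w * rf (e j)) =
        rf w * (rf (e j) * rf (e j)) * rf v * (rf w * rf (e j)) := by simp only [mul_assoc]
    rw [h2, rf_mul_self ej, mul_one]
    simp only [mul_assoc]
  rw [h1]
  exact K.mul_mem (K.mul_mem (hw.2 j) (K.inv_mem (hv.2 j))) (hw.2 j)

theorem phi_neg {v : ι → F} (hv : Phi K v) : Phi K (-v) := by
  have h1 : (-v) ⬝ᵥ (-v) = 1 := by rw [neg_dotProduct_neg]; exact hv.1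
  have h2 : rf (-v) = rf v := by
    apply LinearEquiv.ext
    intro x
    rw [rf_apply h1, rf_apply hv.1, dotProduct_neg]
    module
  refine ⟨h1, fun j => ?_⟩
  rw [h2]
  exact hv.2 j

theorem phi_e (D : Dat K) (i : ι) : Phi K (e i) := by
  have ej : ∀ j, (e j : ι → F) ⬝ᵥ e j = 1 := fun j => by simp [e]
  refine ⟨ej i, fun j => ?_⟩
  by_cases hij : i = j
  · subst hij
    rw [rf_mul_self (ej i)]
    exact K.one_mem
  · have h1 : rf (e i) * rf (e j) = (sg i j : (ι → F) ≃ₗ[F] (ι → F)) := by
      apply LinearEquiv.ext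
      intro x
      change rf (e i) (rf (e j) x) = _
      funext k
      rw [sg_apply, rf_apply (ej i), rf_apply (ej j)]
      simp only [e, dotProduct_single, mul_one, Pi.sub_apply, Pi.smul_apply, smul_eq_mul]
      by_cases hki : k = i
      · subst hki
        simp [hij]
        ring
      · by_cases hkj : k = j
        · subst hkj
          simp [hki, hij]
          ring
        · simp [hki, hkj]
    rw [h1]
    exact D.sg i j hij

/-- sum of squares equal to one -/
theorem one_case {X : ι → ℤ} (h : ∑ i, X i ^ 2 = 1) : ∃ i, (X i = 1 ∨ X i = -1) ∧ ∀ j, j ≠ i → X j = 0 := by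
  have h0 : ∃ i, X i ≠ 0 := by
    by_contra hno
    push Not at hno
    rw [Finset.sum_eq_zero (fun i _ => by rw [hno i]; ring)] at h
    exact absurd h (by norm_num)
  obtain ⟨i, hi⟩ := h0
  have h1 : X i ^ 2 + ∑ j ∈ Finset.univ.erase i, X j ^ 2 = ∑ j, X j ^ 2 :=
    Finset.add_sum_erase Finset.univ (fun i => X i ^ 2) (Finset.mem_univ i)
  rw [h] at h1
  have h2 : 0 ≤ ∑ j ∈ Finset.univ.erase i, X j ^ 2 := Finset.sum_nonneg (fun j _ => sq_nonneg _)
  have h3 : 1 ≤ X i ^ 2 := by
    have := sq_pos_of_ne_zero hi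
    omega
  have h4 : X i ^ 2 = 1 := by omega
  have h5 : ∑ j ∈ Finset.univ.erase i, X j ^ 2 = 0 := by omega
  refine ⟨i, (by have : (X i - 1) * (X i + 1) = 0 := by ring_nf; omega
                 rcases mul_eq_zero.1 this with h | h <;> omega), ?_⟩
  intro j hj
  have h6 := (Finset.sum_eq_zero_iff_of_nonneg (fun j _ => sq_nonneg (X j))).1 h5 j
    (Finset.mem_erase.2 ⟨hj, Finset.mem_univ j⟩)
  exact pow_eq_zero_iff (two_ne_zero) |>.1 h6


theorem odd_mod {x : ℤ} : (x ^ 2) % 4 = if Odd x then 1 else 0 := by
  by_cases h : Odd x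
  · rw [if_pos h]
    obtain ⟨y, rfl⟩ := h
    ring_nf
    omega
  · rw [if_neg h]
    rw [Int.not_odd_iff_even] at h
    obtain ⟨y, rfl⟩ := h
    ring_nf
    omega

theorem phi_int (h2 : (2:F) ≠ 0) (D : Dat K) (hf : F4 K) : ∀ (k : ℕ) (X : ι → ℤ), ∑ i, X i ^ 2 = 4 ^ k →
    Phi K (fun i => (X i : F) / 2 ^ k) := by
  intro k
  induction k with
  | zero =>
    intro X hX
    rw [pow_zero] at hX
    obtain ⟨i, hi, hj⟩ := one_case hX
    rcases hi with hi | hi
    · have h1 : (fun j => (X j : F) / 2 ^ 0) = (e i : ι → F) := by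
        funext j
        by_cases hji : j = i
        · subst hji; simp [e, hi]
        · simp [e, hji, hj j hji]
      rw [h1]
      exact phi_e D i
    · have h1 : (fun j => (X j : F) / 2 ^ 0) = -(e i : ι → F) := by
        funext j
        by_cases hji : j = i
        · subst hji; simp [e, hi]
        · simp [e, hji, hj j hji]
      rw [h1]
      exact phi_neg (phi_e D i)
  | succ k ih =>
    -- induction on the number of odd entries
    have key : ∀ (n : ℕ) (X : ι → ℤ), (Finset.univ.filter (fun i => Odd (X i))).card = n →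
        ∑ i, X i ^ 2 = 4 ^ (k + 1) → Phi K (fun i => (X i : F) / 2 ^ (k + 1)) := by
      intro n
      induction n using Nat.strong_induction_on with
      | _ n ihn =>
      intro X hn hX
      by_cases h0 : n = 0
      · subst h0
        have hev : ∀ i, Even (X i) := by
          intro i
          rw [← Int.not_odd_iff_even]
          intro ho
          have : i ∈ Finset.univ.filter (fun i => Odd (X i)) := Finset.mem_filter.2 ⟨Finset.mem_univ i, ho⟩
          rw [Finset.card_eq_zero.1 hn] at this
          exact absurd this (Finset.notMem_empty i)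
        choose Y hY using hev
        have h1 : ∑ i, Y i ^ 2 = 4 ^ k := by
          have h3 : ∑ i, X i ^ 2 = 4 * ∑ i, Y i ^ 2 := by
            rw [Finset.mul_sum]
            refine Finset.sum_congr rfl (fun i _ => ?_)
            rw [hY i]; ring
          rw [h3, pow_succ] at hX
          omega
        have h3 := ih Y h1
        have h4 : (fun i => (X i : F) / 2 ^ (k + 1)) = (fun i => (Y i : F) / 2 ^ k) := by
          funext i
          rw [hY i]
          push_cast
          rw [pow_succ, div_eq_div_iff (mul_ne_zero (pow_ne_zero k h2) h2) (pow_ne_zero k h2)]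
          ring
        rw [h4]
        exact h3
      · -- four odd entries
        have hcard4 : 4 ≤ (Finset.univ.filter (fun i => Odd (X i))).card := by
          have h1 : ((Finset.univ.filter (fun i => Odd (X i))).card : ℤ) % 4 = 0 := by
            have h3 : (∑ i, X i ^ 2) % 4 = (∑ i, (if Odd (X i) then 1 else 0 : ℤ)) % 4 := by
              rw [Finset.sum_int_mod]
              congr 1
              refine Finset.sum_congr rfl (fun i _ => ?_)
              exact odd_mod
            rw [hX, Finset.sum_boole] at h3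
            rw [← h3, pow_succ]
            omega
          omega
        obtain ⟨I, hI, hI4⟩ := Finset.exists_subset_card_eq hcard4
        have hodd : ∀ i ∈ I, Odd (X i) := fun i hi => (Finset.mem_filter.1 (hI hi)).2
        obtain ⟨i0, hi0⟩ : I.Nonempty := Finset.card_pos.1 (by omega)
        -- signs
        have hs : ∀ i, ∃ s q : ℤ, s ^ 2 = 1 ∧ (i ∈ I → s * X i = 4 * q + 1) := by
          intro i
          by_cases hi : i ∈ I
          · obtain ⟨y, hy⟩ := hodd i hi
            rcases Int.even_or_odd' y with ⟨z, hz | hz⟩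
            · exact ⟨1, z, by norm_num, fun _ => by rw [hy, hz]; ring⟩
            · exact ⟨-1, -z - 1, by norm_num, fun _ => by rw [hy, hz]; ring⟩
          · exact ⟨1, 0, by norm_num, fun h => absurd h hi⟩
        choose s q hs1 hsX using hs
        let ε : ι → ℤ := fun i => if i ∈ I then (if i = i0 then - s i else s i) else 0
        have hε2 : ∀ i, i ∈ I → ε i ^ 2 = 1 := by
          intro i hi
          simp only [ε, if_pos hi]
          split_ifs
          · rw [neg_sq, hs1]
          · rw [hs1]
        have hε0 : ∀ i, i ∉ I → ε i = 0 := fun i hi => by simp only [ε, if_neg hi]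
        have hS1 : ∑ i, ε i * X i = ∑ i ∈ I, s i * X i - 2 * (s i0 * X i0) := by
          have e1 : ∑ i, ε i * X i = ∑ i ∈ I, ε i * X i := by
            symm
            apply Finset.sum_subset (Finset.subset_univ I)
            intro i _ hi
            rw [hε0 i hi, zero_mul]
          rw [e1, ← Finset.add_sum_erase I (fun i => ε i * X i) hi0, ← Finset.add_sum_erase I (fun i => s i * X i) hi0]
          have e2 : ∑ i ∈ I.erase i0, ε i * X i = ∑ i ∈ I.erase i0, s i * X i := by
            refine Finset.sum_congr rfl (fun i hi => ?_)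
            rw [Finset.mem_erase] at hi
            simp only [ε, if_pos hi.2, if_neg hi.1]
          have e3 : ε i0 = - s i0 := by simp only [ε, if_pos hi0, if_true]
          rw [e2, e3]
          ring
        have hS2 : ∑ i ∈ I, s i * X i = 4 * (∑ i ∈ I, q i) + 4 := by
          rw [Finset.sum_congr rfl (fun i hi => hsX i hi), Finset.sum_add_distrib, ← Finset.mul_sum]
          simp [hI4]
        obtain ⟨T, hT, hTo⟩ : ∃ T : ℤ, ∑ i, ε i * X i = 2 * T ∧ Odd T := by
          refine ⟨2 * (∑ i ∈ I, q i) + 2 - (4 * q i0 + 1), ?_, ?_⟩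
          · rw [hS1, hS2, hsX i0 hi0]; ring
          · exact ⟨(∑ i ∈ I, q i) - 2 * q i0, by ring⟩
        have hε4 : ∑ i, ε i ^ 2 = 4 := by
          have e1 : ∑ i, ε i ^ 2 = ∑ i ∈ I, ε i ^ 2 := by
            symm
            apply Finset.sum_subset (Finset.subset_univ I)
            intro i _ hi
            rw [hε0 i hi]; ring
          rw [e1, Finset.sum_congr rfl (fun i hi => hε2 i hi)]
          simp [hI4]
        let X' : ι → ℤ := fun i => X i - T * ε i
        have hX' : ∑ i, X' i ^ 2 = 4 ^ (k + 1) := by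
          have e1 : ∑ i, X' i ^ 2 = ∑ i, X i ^ 2 - 2 * T * ∑ i, ε i * X i + T ^ 2 * ∑ i, ε i ^ 2 := by
            rw [Finset.mul_sum, Finset.mul_sum, ← Finset.sum_sub_distrib, ← Finset.sum_add_distrib]
            refine Finset.sum_congr rfl (fun i _ => ?_)
            simp only [X']
            ring
          rw [e1, hT, hε4, hX]; ring
        have hεodd : ∀ i, i ∈ I → Odd (ε i) := by
          intro i hi
          have h1 := hε2 i hi
          by_contra h3
          rw [Int.not_odd_iff_even] at h3
          have h4 : Even (ε i ^ 2) := h3.pow_of_ne_zero (by norm_num)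
          rw [h1] at h4
          exact absurd h4 (by decide)
        have hlt : (Finset.univ.filter (fun i => Odd (X' i))).card < n := by
          rw [← hn]
          apply Finset.card_lt_card
          rw [Finset.ssubset_iff_of_subset]
          · refine ⟨i0, hI hi0, ?_⟩
            rw [Finset.mem_filter]
            rintro ⟨-, h3⟩
            have h4 : Even (X' i0) := (hodd i0 hi0).sub_odd (hTo.mul (hεodd i0 hi0))
            rw [← Int.not_odd_iff_even] at h4
            exact h4 h3
          · intro i hi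
            rw [Finset.mem_filter] at hi ⊢
            refine ⟨Finset.mem_univ i, ?_⟩
            by_cases hiI : i ∈ I
            · exact hodd i hiI
            · have h3 : X' i = X i := by simp only [X', hε0 i hiI]; ring
              rw [h3] at hi
              exact hi.2
        have h5 := ihn _ hlt X' rfl hX'
        -- the reflection
        let w : ι → F := fun i => (ε i : F) / 2
        have hw : Phi K w := by
          refine hf w ⟨I, hI4, ?_, ?_⟩
          · intro i hi
            simp only [w, hε0 i hi]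
            simp
          · intro i hi
            have h6 : ((ε i ^ 2 : ℤ) : F) = 1 := by rw [hε2 i hi]; norm_num
            push_cast at h6
            simp only [w]
            field_simp
            linear_combination 4 * h6
        have h7 : rf w (fun i => (X i : F) / 2 ^ (k + 1)) = (fun i => (X' i : F) / 2 ^ (k + 1)) := by
          have h8 : (fun i => (X i : F) / 2 ^ (k + 1)) ⬝ᵥ w = (T : F) / 2 ^ (k + 1) := by
            have h9 : ((∑ i, ε i * X i : ℤ) : F) = 2 * (T : F) := by rw [hT]; push_cast; ring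
            push_cast at h9
            have h10 : (fun i => (X i : F) / 2 ^ (k + 1)) ⬝ᵥ w = (∑ i, (ε i : F) * (X i : F)) / (2 ^ (k + 1) * 2) := by
              rw [dotProduct, Finset.sum_div]
              refine Finset.sum_congr rfl (fun i _ => ?_)
              simp only [w]
              rw [div_mul_div_comm, mul_comm (X i : F)]
            rw [h10, h9, mul_comm (2:F) (T:F), mul_div_mul_right _ _ h2]
          rw [rf_apply hw.1, h8]
          funext i
          simp only [Pi.sub_apply, Pi.smul_apply, smul_eq_mul, w, X']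
          push_cast
          have h11 : (2:F) ^ (k + 1) ≠ 0 := pow_ne_zero _ h2
          field_simp
        have h12 : (fun i => (X i : F) / 2 ^ (k + 1)) = rf w (fun i => (X' i : F) / 2 ^ (k + 1)) := by
          rw [← h7, rf_rf hw.1]
        rw [h12]
        exact phi_rf hw h5
    intro X hX
    exact key _ X rfl hX


/-- the integer vector -/
theorem exists_int {p : ℕ} (hp : p.Prime) (hp3 : p ≠ 3) : ∃ (k A C m : ℕ), (p : ℤ) ∣ 3 * A - 2 * 2 ^ k ∧
    (p : ℤ) ∣ 3 * C - 2 ^ k ∧ A ^ 2 + A ^ 2 + C ^ 2 + p ^ 2 * m = 4 ^ k := by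
  have hp0 : 0 < p := hp.pos
  have hp2 : p ^ 2 ≠ 0 := pow_ne_zero 2 hp0.ne'
  have : NeZero (p ^ 2) := ⟨hp2⟩
  have hco : Nat.Coprime 3 (p ^ 2) := by
    apply Nat.Coprime.pow_right
    rw [Nat.coprime_primes Nat.prime_three hp]
    exact fun h => hp3 h.symm
  obtain ⟨k, h4k⟩ : ∃ k : ℕ, 3 * p ^ 4 ≤ 4 ^ k := ⟨3 * p ^ 4, (Nat.lt_pow_self (by norm_num : 1 < 4)).le⟩
  obtain ⟨c, hc⟩ : ∃ c : ZMod (p ^ 2), 3 * c = 1 := by
    have h1 := ZMod.coe_mul_inv_eq_one 3 hco
    exact ⟨((3 : ℕ) : ZMod (p ^ 2))⁻¹, by simpa using h1⟩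
  let u : ZMod (p ^ 2) := 2 ^ k * c
  let A : ℕ := (2 * u).val
  let C : ℕ := u.val
  have hA : (A : ZMod (p ^ 2)) = 2 * u := ZMod.natCast_zmod_val _
  have hC : (C : ZMod (p ^ 2)) = u := ZMod.natCast_zmod_val _
  have hu : 3 * u = 2 ^ k := by
    change 3 * (2 ^ k * c) = 2 ^ k
    linear_combination (2 ^ k) * hc
  have hAlt : A < p ^ 2 := ZMod.val_lt _
  have hClt : C < p ^ 2 := ZMod.val_lt _
  have hpp : (p : ℤ) ∣ ((p ^ 2 : ℕ) : ℤ) := by
    exact ⟨(p : ℤ), by push_cast; ring⟩
  have h1 : ((p ^ 2 : ℕ) : ℤ) ∣ 3 * A - 2 * 2 ^ k := by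
    rw [← ZMod.intCast_zmod_eq_zero_iff_dvd]
    push_cast
    rw [hA]
    linear_combination 2 * hu
  have h2 : ((p ^ 2 : ℕ) : ℤ) ∣ 3 * C - 2 ^ k := by
    rw [← ZMod.intCast_zmod_eq_zero_iff_dvd]
    push_cast
    rw [hC]
    linear_combination hu
  have h3 : ((p ^ 2 : ℕ) : ℤ) ∣ 4 ^ k - (A ^ 2 + A ^ 2 + C ^ 2) := by
    rw [← ZMod.intCast_zmod_eq_zero_iff_dvd]
    push_cast
    rw [hA, hC]
    have h5 : (4 : ZMod (p ^ 2)) ^ k = (3 * u) ^ 2 := by
      rw [hu, ← pow_mul, mul_comm k 2, pow_mul]
      norm_num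
    rw [h5]; ring
  have hle : A ^ 2 + A ^ 2 + C ^ 2 ≤ 4 ^ k := by
    have e1 : A ^ 2 ≤ (p ^ 2) ^ 2 := Nat.pow_le_pow_left hAlt.le 2
    have e2 : C ^ 2 ≤ (p ^ 2) ^ 2 := Nat.pow_le_pow_left hClt.le 2
    have e3 : (p ^ 2) ^ 2 = p ^ 4 := by ring
    rw [e3] at e1 e2
    omega
  have h6 : p ^ 2 ∣ 4 ^ k - (A ^ 2 + A ^ 2 + C ^ 2) := by
    zify [hle]
    exact_mod_cast h3
  obtain ⟨m, hm⟩ := h6
  refine ⟨k, A, C, m, hpp.trans h1, hpp.trans h2, ?_⟩
  rw [← hm]
  omega

theorem desc3 [Fintype F] (hp : (Fintype.card F).Prime) (h2 : (2:F) ≠ 0) (hN : 7 ≤ Fintype.card ι)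
    (D : Dat K) (hf : F4 K) (h3 : (3:F) ≠ 0) : ∃ g ∈ K, ∃ I : Finset ι, I.card = 3 ∧ Sup g I ∧ ¬ Mon g := by
  set p := Fintype.card F with hpF
  have : Fact p.Prime := ⟨hp⟩
  have : CharP F p := charP_of_card_eq_prime hpF.symm
  have hp3 : p ≠ 3 := by
    intro h
    apply h3
    have := CharP.cast_eq_zero F p
    rw [h] at this
    exact_mod_cast this
  obtain ⟨k, A, C, m, hA, hC, hsum⟩ := exists_int hp hp3
  obtain ⟨a, b, c, d, hm⟩ := Nat.sum_four_squares m
  have hemb : Nonempty (Fin 7 ↪ ι) := Function.Embedding.nonempty_of_card_le (by simpa using hN)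
  obtain ⟨f⟩ := hemb
  let x : Fin 7 → ℤ := ![A, A, C, p * a, p * b, p * c, p * d]
  let X : ι → ℤ := Function.extend f x (fun _ => (0 : ℤ))
  have hX : ∀ j, X (f j) = x j := fun j => f.injective.extend_apply x (fun _ => (0 : ℤ)) j
  have hX0 : ∀ i, (∀ j, f j ≠ i) → X i = 0 := by
    intro i hi
    have : ¬ ∃ j, f j = i := fun ⟨j, hj⟩ => hi j hj
    exact Function.extend_apply' x (fun _ => (0 : ℤ)) i this
  have hXs : ∑ i, X i ^ 2 = 4 ^ k := by
    have e1 : ∑ j, x j ^ 2 = ∑ i, X i ^ 2 := by
      refine Fintype.sum_of_injective f f.injective _ _ ?_ ?_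
      · intro i hi
        rw [hX0 i (fun j hj => hi ⟨j, hj⟩)]
        norm_num
      · intro j
        rw [hX]
    rw [← e1]
    simp only [x, Fin.sum_univ_succ, Fin.sum_univ_zero]
    simp
    have e2 : ((A ^ 2 + A ^ 2 + C ^ 2 + p ^ 2 * m : ℕ) : ℤ) = 4 ^ k := by rw [hsum]; push_cast; ring
    rw [← hm] at e2
    push_cast at e2
    linear_combination e2
  have hphi := phi_int h2 D hf k X hXs
  set v : ι → F := fun i => (X i : F) / 2 ^ k with hv
  have h2k : (2:F) ^ k ≠ 0 := pow_ne_zero k h2
  have hAF : (A : F) = 2 / 3 * 2 ^ k := by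
    have := (CharP.intCast_eq_zero_iff F p _).2 hA
    push_cast at this
    field_simp
    linear_combination this
  have hCF : (C : F) = 1 / 3 * 2 ^ k := by
    have := (CharP.intCast_eq_zero_iff F p _).2 hC
    push_cast at this
    field_simp
    linear_combination this
  have hp0 : (p : F) = 0 := CharP.cast_eq_zero F p
  have hv0 : v (f 0) = 2 / 3 := by
    simp only [hv, hX, x]
    simp only [Matrix.cons_val_zero]
    push_cast
    rw [hAF]; field_simp
  have hv1 : v (f 1) = 2 / 3 := by
    simp only [hv, hX, x]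
    simp only [Matrix.cons_val_one, Matrix.cons_val_zero]
    push_cast
    rw [hAF]; field_simp
  have hv2 : v (f 2) = 1 / 3 := by
    simp only [hv, hX, x]
    simp only [Matrix.cons_val]
    push_cast
    rw [hCF]; field_simp
  have hvz : ∀ i, i ≠ f 0 → i ≠ f 1 → i ≠ f 2 → v i = 0 := by
    intro i h0 h1 h2
    by_cases hi : ∃ j, f j = i
    · obtain ⟨j, rfl⟩ := hi
      simp only [hv, hX, x]
      fin_cases j
      · exact absurd rfl h0
      · exact absurd rfl h1
      · exact absurd rfl h2
      all_goals simp [hp0]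
    · simp only [hv]
      rw [hX0 i (fun j hj => hi ⟨j, hj⟩)]
      simp
  have h01 : f 0 ≠ f 1 := fun h => absurd (f.injective h) (by decide)
  have h02 : f 0 ≠ f 2 := fun h => absurd (f.injective h) (by decide)
  have h12 : f 1 ≠ f 2 := fun h => absurd (f.injective h) (by decide)
  have ej : (e (f 2) : ι → F) ⬝ᵥ e (f 2) = 1 := by simp [e]
  refine ⟨rf v * rf (e (f 2)), hphi.2 _, {f 0, f 1, f 2}, ?_, ?_, ?_⟩
  · rw [Finset.card_insert_of_notMem (by simp [h01, h02]), Finset.card_insert_of_notMem (by simp [h12]),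
      Finset.card_singleton]
  · intro l hl
    simp only [Finset.mem_insert, Finset.mem_singleton, not_or] at hl
    change rf v (rf (e (f 2)) (e l)) = e l
    have e1 : (e l : ι → F) ⬝ᵥ e (f 2) = 0 := by simp [e, Ne.symm hl.2.2]
    have e2 : (e l : ι → F) ⬝ᵥ v = 0 := by
      simp only [e, single_dotProduct, one_mul]
      exact hvz l hl.1 hl.2.1 hl.2.2
    rw [rf_apply ej, e1, mul_zero, zero_smul, sub_zero, rf_apply hphi.1, e2, mul_zero, zero_smul, sub_zero]
  · intro hmon
    obtain ⟨j, hj⟩ := hmon (f 2)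
    have e1 : (rf v * rf (e (f 2)) : (ι → F) ≃ₗ[F] (ι → F)) (e (f 2)) = - e (f 2) + (2 / 3 : F) • v := by
      change rf v (rf (e (f 2)) (e (f 2))) = _
      rw [rf_apply ej, ej, rf_apply hphi.1, sub_dotProduct, smul_dotProduct]
      have e3 : (e (f 2) : ι → F) ⬝ᵥ v = 1 / 3 := by
        simp only [e, single_dotProduct, one_mul]
        exact hv2
      rw [e3]
      funext i
      simp only [Pi.sub_apply, Pi.smul_apply, Pi.neg_apply, Pi.add_apply, smul_eq_mul]
      field_simp
      ring
    rw [e1] at hj
    have hne : (2 / 3 : F) * (2 / 3) ≠ 0 := by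
      have : (2 / 3 : F) ≠ 0 := div_ne_zero h2 h3
      exact mul_ne_zero this this
    have c0 : (- e (f 2) + (2 / 3 : F) • v : ι → F) (f 0) = 2 / 3 * (2 / 3) := by
      simp [e, h02, hv0]
    have c1 : (- e (f 2) + (2 / 3 : F) • v : ι → F) (f 1) = 2 / 3 * (2 / 3) := by
      simp [e, h12, hv1]
    have j0 : j = f 0 := by
      by_contra hne0
      rcases hj with hj | hj
      · rw [hj] at c0
        rw [← c0] at hne
        exact hne (by simp [e, Ne.symm hne0])
      · rw [hj] at c0
        rw [← c0] at hne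
        exact hne (by simp [e, Ne.symm hne0])
    have j1 : j = f 1 := by
      by_contra hne0
      rcases hj with hj | hj
      · rw [hj] at c1
        rw [← c1] at hne
        exact hne (by simp [e, Ne.symm hne0])
      · rw [hj] at c1
        rw [← c1] at hne
        exact hne (by simp [e, Ne.symm hne0])
    exact h01 (j0.symm.trans j1)

theorem desc3' [Fintype F] (hp : (Fintype.card F).Prime) (h2 : (2:F) ≠ 0) (_hN : 7 ≤ Fintype.card ι)
    (D : Dat K) (hf : F4 K) (h3 : (3:F) = 0) (v : ι → F) (hv : v ⬝ᵥ v = 1) : Phi K v := by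
  classical
  have hcard : Fintype.card F = 3 := by
    have : Fact (Fintype.card F).Prime := ⟨hp⟩
    have : CharP F (Fintype.card F) := charP_of_card_eq_prime rfl
    have h1 : ((3 : ℕ) : F) = 0 := by exact_mod_cast h3
    have h4 := (CharP.cast_eq_zero_iff F (Fintype.card F) 3).1 h1
    exact (Nat.prime_dvd_prime_iff_eq hp Nat.prime_three).1 h4
  have hsq : ∀ x : F, x ≠ 0 → x * x = 1 := by
    intro x hx
    have := FiniteField.pow_card_sub_one_eq_one x hx
    rw [hcard] at this
    rw [← pow_two]
    exact this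
  have key : ∀ (n : ℕ) (v : ι → F), (Finset.univ.filter (fun i => v i ≠ 0)).card = n → v ⬝ᵥ v = 1 → Phi K v := by
    intro n
    induction n using Nat.strong_induction_on with
    | _ n ihn =>
    intro v hn hv
    have hdot : ((n : ℕ) : F) = 1 := by
      rw [← hv, dotProduct, ← hn, Finset.card_filter]
      push_cast
      refine Finset.sum_congr rfl (fun i _ => ?_)
      by_cases hi : v i = 0
      · simp [hi]
      · rw [if_pos hi, hsq _ hi]
    by_cases hn1 : n ≤ 3
    · have hn' : n = 1 := by
        interval_cases n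
        · simp at hdot
        · rfl
        · exfalso
          have : (1 : F) = 0 := by
            have h5 : ((2 : ℕ) : F) = 1 := hdot
            push_cast at h5
            linear_combination h5
          exact one_ne_zero this
        · exfalso
          have h5 : ((3 : ℕ) : F) = 1 := hdot
          push_cast at h5
          rw [h3] at h5
          exact zero_ne_one h5
      subst hn'
      obtain ⟨i, hi⟩ := Finset.card_eq_one.1 hn
      have hi' : v i ≠ 0 := by
        have : i ∈ Finset.univ.filter (fun i => v i ≠ 0) := by rw [hi]; exact Finset.mem_singleton_self i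
        exact (Finset.mem_filter.1 this).2
      have hj : ∀ j, j ≠ i → v j = 0 := by
        intro j hj
        by_contra h
        have : j ∈ Finset.univ.filter (fun i => v i ≠ 0) := Finset.mem_filter.2 ⟨Finset.mem_univ j, h⟩
        rw [hi] at this
        exact hj (Finset.mem_singleton.1 this)
      have h1 := hsq _ hi'
      have h4 : v i = 1 ∨ v i = -1 := mul_self_eq_one_iff.1 h1
      rcases h4 with h4 | h4
      · have h5 : v = (e i : ι → F) := by
          funext j
          by_cases hji : j = i
          · subst hji; simp [e, h4]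
          · simp [e, hji, hj j hji]
        rw [h5]; exact phi_e D i
      · have h5 : v = -(e i : ι → F) := by
          funext j
          by_cases hji : j = i
          · subst hji; simp [e, h4]
          · simp [e, hji, hj j hji]
        rw [h5]; exact phi_neg (phi_e D i)
    · have h4n : 4 ≤ (Finset.univ.filter (fun i => v i ≠ 0)).card := by omega
      obtain ⟨I, hI, hI4⟩ := Finset.exists_subset_card_eq h4n
      have hvI : ∀ i ∈ I, v i ≠ 0 := fun i hi => (Finset.mem_filter.1 (hI hi)).2
      obtain ⟨i0, hi0⟩ : I.Nonempty := Finset.card_pos.1 (by omega)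
      let w : ι → F := fun i => if i ∈ I then (if i = i0 then - v i else v i) else 0
      have hwI : ∀ i ∈ I, w i * w i = 1 := by
        intro i hi
        simp only [w, if_pos hi]
        split_ifs
        · rw [neg_mul_neg]; exact hsq _ (hvI i hi)
        · exact hsq _ (hvI i hi)
      have hw : Phi K w := by
        refine hf w ⟨I, hI4, fun i hi => by simp only [w, if_neg hi], fun i hi => ?_⟩
        rw [hwI i hi]
        linear_combination h3
      have hvw : v ⬝ᵥ w = -1 := by
        have e1 : v ⬝ᵥ w = ∑ i ∈ I, v i * w i := by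
          rw [dotProduct]
          symm
          apply Finset.sum_subset (Finset.subset_univ I)
          intro i _ hi
          simp only [w, if_neg hi, mul_zero]
        rw [e1, ← Finset.add_sum_erase I (fun i => v i * w i) hi0]
        have e2 : ∑ i ∈ I.erase i0, v i * w i = ∑ i ∈ I.erase i0, (1 : F) := by
          refine Finset.sum_congr rfl (fun i hi => ?_)
          rw [Finset.mem_erase] at hi
          simp only [w, if_pos hi.2, if_neg hi.1]
          exact hsq _ (hvI i hi.2)
        have e3 : v i0 * w i0 = -1 := by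
          simp only [w, if_pos hi0, if_true]
          rw [mul_neg, hsq _ (hvI i0 hi0)]
        rw [e2, e3, Finset.sum_const, Finset.card_erase_of_mem hi0, hI4]
        simp
        linear_combination h3
      have hr : rf w v = v - w := by
        rw [rf_apply hw.1, hvw]
        funext i
        simp only [Pi.sub_apply, Pi.smul_apply, smul_eq_mul]
        linear_combination (w i) * h3
      have hlt : (Finset.univ.filter (fun i => (v - w) i ≠ 0)).card < n := by
        rw [← hn]
        apply Finset.card_lt_card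
        obtain ⟨i1, hi1⟩ : (I.erase i0).Nonempty := Finset.card_pos.1 (by
          rw [Finset.card_erase_of_mem hi0]; omega)
        rw [Finset.mem_erase] at hi1
        rw [Finset.ssubset_iff_of_subset]
        · refine ⟨i1, hI hi1.2, ?_⟩
          rw [Finset.mem_filter]
          rintro ⟨-, h5⟩
          apply h5
          simp only [Pi.sub_apply, w, if_pos hi1.2, if_neg hi1.1, sub_self]
        · intro i hi
          rw [Finset.mem_filter] at hi ⊢
          refine ⟨Finset.mem_univ i, ?_⟩
          by_cases hiI : i ∈ I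
          · exact hvI i hiI
          · have h5 : (v - w) i = v i := by simp only [Pi.sub_apply, w, if_neg hiI, sub_zero]
            rw [h5] at hi
            exact hi.2
      have h6 : Phi K (v - w) := by
        refine ihn _ hlt (v - w) rfl ?_
        rw [← hr]
        exact rf_unit hw.1 hv
      have h7 : v = rf w (v - w) := by rw [← hr, rf_rf hw.1]
      rw [h7]
      exact phi_rf hw h6
  exact key _ v rfl hv

end H60.FrJ
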