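import Mathlib
import Cfsg.Agent.Lib.H1.UniqueSub

/-! Half-transitive linear 2-groups: number theory, stabilisers, irreducibility (helper60). -/

set_option autoImplicit false

namespace H60.HalfTransA

section NT

theorem odd_of_dvd_pow_two {d m : ℕ} (hd : Odd d) (h : d ∣ 2 ^ m) : d = 1 := by
  obtain ⟨k, -, rfl⟩ := (Nat.dvd_prime_pow Nat.prime_two).mp h
  rcases Nat.eq_zero_or_pos k with rfl | hk
  · simp
  · exfalso
    rw [Nat.odd_iff] at hd
    have : 2 ∣ 2 ^ k := dvd_pow_self 2 hk.ne'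
    omega

theorem odd_geom_sum {x : ℤ} (hx : Odd x) {r : ℕ} (hr : Odd r) : Odd (∑ i ∈ Finset.range r, x ^ i) := by
  obtain ⟨k, rfl⟩ := hr
  induction k with
  | zero => simp
  | succ k ih =>
    rw [show 2 * (k + 1) + 1 = (2 * k + 1) + 1 + 1 by ring, Finset.sum_range_succ, Finset.sum_range_succ, add_assoc]
    exact ih.add_even ((hx.pow).add_odd hx.pow)

theorem sub_one_nt {q r m : ℕ} (hq : Odd q) (hq1 : 1 < q) (hr : r ≠ 0) (h : q ^ r - 1 = 2 ^ m) :
    r = 1 ∨ (q = 3 ∧ r = 2) := by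
  have hqr : q ^ r = 2 ^ m + 1 := by
    have : 0 < q ^ r := by positivity
    omega
  rcases Nat.even_or_odd r with ⟨s, hs⟩ | hodd
  · right
    have hs0 : s ≠ 0 := by omega
    have h1 : q ^ r = q ^ s * q ^ s := by rw [hs, pow_add]
    have hqs : 3 ≤ q ^ s := by
      have h3 : 3 ≤ q := by rcases hq with ⟨k, hk⟩; omega
      calc 3 ≤ q := h3
        _ = q ^ 1 := (pow_one q).symm
        _ ≤ q ^ s := Nat.pow_le_pow_right (by omega) (by omega)
    obtain ⟨t, ht⟩ : ∃ t, q ^ s = t + 1 := ⟨q ^ s - 1, by omega⟩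
    have h2 : t * (t + 2) = 2 ^ m := by
      have : (t + 1) * (t + 1) = 2 ^ m + 1 := by rw [← ht, ← h1, hqr]
      nlinarith
    obtain ⟨i, -, hi⟩ := (Nat.dvd_prime_pow Nat.prime_two).mp (Dvd.intro _ h2)
    obtain ⟨j, -, hj⟩ := (Nat.dvd_prime_pow Nat.prime_two).mp (Dvd.intro_left _ h2)
    have ht2 : 2 ≤ t := by omega
    have hi1 : i = 1 := by
      by_contra hne
      have hi0 : i ≠ 0 := by rintro rfl; simp at hi; omega
      have hi2 : 2 ≤ i := by omega
      have h4 : 4 ∣ t := by rw [hi]; exact pow_dvd_pow 2 hi2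
      have hj2 : 2 ≤ j := by
        by_contra hlt
        interval_cases j
        · omega
        · omega
      have h5 : 4 ∣ t + 2 := by rw [hj]; exact pow_dvd_pow 2 hj2
      omega
    rw [hi1, pow_one] at hi
    rw [hi] at ht
    have hq3 : q = 3 := by
      have h6 : q ∣ 3 := by
        have := dvd_pow_self q hs0
        rwa [ht] at this
      rcases (Nat.dvd_prime Nat.prime_three).mp h6 with h7 | h7
      · omega
      · exact h7
    refine ⟨hq3, ?_⟩
    rw [hq3] at ht
    have : s = 1 := by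
      by_contra hne
      have : 2 ≤ s := by omega
      have := Nat.pow_le_pow_right (n := 3) (by norm_num) this
      omega
    omega
  · left
    have h1 : ((∑ i ∈ Finset.range r, (q : ℤ) ^ i)) * ((q : ℤ) - 1) = (q : ℤ) ^ r - 1 := geom_sum_mul _ _
    have h2 : ((q : ℤ) ^ r - 1) = 2 ^ m := by
      have : ((q ^ r : ℕ) : ℤ) = ((2 ^ m + 1 : ℕ) : ℤ) := by rw [hqr]
      push_cast at this
      rw [this]; ring
    have h3 : Odd (∑ i ∈ Finset.range r, (q : ℤ) ^ i) := odd_geom_sum (by exact_mod_cast hq) hodd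
    have h4 : (∑ i ∈ Finset.range r, q ^ i) ∣ 2 ^ m := by
      have : ((∑ i ∈ Finset.range r, q ^ i : ℕ) : ℤ) ∣ ((2 ^ m : ℕ) : ℤ) := by
        push_cast
        rw [← h2, ← h1]
        exact Dvd.intro _ rfl
      exact_mod_cast this
    have h5 : Odd (∑ i ∈ Finset.range r, q ^ i) := by
      have : ((∑ i ∈ Finset.range r, q ^ i : ℕ) : ℤ) = ∑ i ∈ Finset.range r, (q : ℤ) ^ i := by push_cast; rfl
      rw [← this] at h3
      exact_mod_cast h3
    have h6 := odd_of_dvd_pow_two h5 h4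
    by_contra hne
    have hr2 : 2 ≤ r := by omega
    have h7 : ∑ i ∈ Finset.range 2, q ^ i ≤ ∑ i ∈ Finset.range r, q ^ i :=
      Finset.sum_le_sum_of_subset (Finset.range_mono hr2)
    rw [h6, Finset.sum_range_succ, Finset.sum_range_one] at h7
    simp at h7
    omega

theorem add_one_nt {q r m : ℕ} (hq : Odd q) (hq1 : 1 < q) (hm : 2 ≤ m) (h : q ^ r + 1 = 2 ^ m) :
    r = 1 := by
  have h4m : 4 ∣ 2 ^ m := pow_dvd_pow 2 hm
  rcases Nat.even_or_odd r with ⟨s, hs⟩ | hodd
  · exfalso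
    have h1 : q ^ r = q ^ s * q ^ s := by rw [hs, pow_add]
    obtain ⟨k, hk⟩ : Odd (q ^ s) := hq.pow
    rw [h1, hk] at h
    have h2 : (2 * k + 1) * (2 * k + 1) + 1 = 4 * (k * k + k) + 2 := by ring
    omega
  · have h1 : ((∑ i ∈ Finset.range r, (-(q : ℤ)) ^ i)) * (-(q : ℤ) - 1) = (-(q : ℤ)) ^ r - 1 := geom_sum_mul _ _
    have h2 : (q : ℤ) ^ r + 1 = 2 ^ m := by exact_mod_cast h
    rw [hodd.neg_pow] at h1
    have h3 : Odd (∑ i ∈ Finset.range r, (-(q : ℤ)) ^ i) := odd_geom_sum (by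
      have : Odd (q : ℤ) := by exact_mod_cast hq
      exact this.neg) hodd
    have h4 : (∑ i ∈ Finset.range r, (-(q : ℤ)) ^ i) * ((q : ℤ) + 1) = 2 ^ m := by
      rw [← h2]; linarith
    have h5 : (∑ i ∈ Finset.range r, (-(q : ℤ)) ^ i).natAbs ∣ 2 ^ m := by
      have : (∑ i ∈ Finset.range r, (-(q : ℤ)) ^ i) ∣ ((2 ^ m : ℕ) : ℤ) := by
        push_cast; exact Dvd.intro _ h4
      have := Int.natAbs_dvd_natAbs.mpr this
      rwa [Int.natAbs_natCast] at this
    have h6 := odd_of_dvd_pow_two (Int.natAbs_odd.mpr h3) h5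
    have h7 : (∑ i ∈ Finset.range r, (-(q : ℤ)) ^ i) = 1 := by
      rcases Int.natAbs_eq_iff.mp h6 with h8 | h8
      · simpa using h8
      · exfalso
        have h9 : (∑ i ∈ Finset.range r, (-(q : ℤ)) ^ i) = -1 := by simpa using h8
        rw [h9] at h4
        have : (0 : ℤ) < 2 ^ m := by positivity
        have : (0 : ℤ) ≤ q := by positivity
        linarith
    rw [h7, one_mul, ← h2] at h4
    have h8 : q ^ 1 = q ^ r := by
      rw [pow_one]
      have : ((q : ℕ) : ℤ) = ((q ^ r : ℕ) : ℤ) := by push_cast; linarith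
      exact_mod_cast this
    exact (Nat.pow_right_injective (by omega : 2 ≤ q) h8).symm

end NT

section St

variable {q : ℕ} {V : Type*} [AddCommGroup V] [Module (ZMod q) V] {G : Type*} [Group G]

theorem mul_act (ρ : G →* (V ≃ₗ[ZMod q] V)) (a b : G) (v : V) : ρ (a * b) v = ρ a (ρ b v) := by
  rw [map_mul]; rfl

theorem inv_act (ρ : G →* (V ≃ₗ[ZMod q] V)) (a : G) (v : V) : ρ a⁻¹ (ρ a v) = v := by
  rw [← mul_act, inv_mul_cancel, map_one]; rfl

/-- stabiliser -/
def St (ρ : G →* (V ≃ₗ[ZMod q] V)) (v : V) : Subgroup G where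
  carrier := {g | ρ g v = v}
  mul_mem' := by
    intro x y hx hy
    simp only [Set.mem_ofPred_eq] at hx hy ⊢
    rw [mul_act, hy, hx]
  one_mem' := by simp
  inv_mem' := by
    intro x hx
    simp only [Set.mem_ofPred_eq] at hx ⊢
    have h1 := inv_act ρ x v
    rw [hx] at h1; exact h1

theorem mem_St (ρ : G →* (V ≃ₗ[ZMod q] V)) (v : V) (g : G) : g ∈ St ρ v ↔ ρ g v = v := Iff.rfl

theorem card_orbit_mul (ρ : G →* (V ≃ₗ[ZMod q] V)) (v : V) :
    Nat.card {u : V | ∃ g : G, ρ g v = u} * Nat.card (St ρ v) = Nat.card G := by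
  let _ : MulAction G V := MulAction.compHom V ρ
  have h1 := Nat.card_congr (MulAction.orbitProdStabilizerEquivGroup G v)
  rw [Nat.card_prod] at h1
  exact h1

/-- fixed space -/
def Fx (ρ : G →* (V ≃ₗ[ZMod q] V)) (g : G) : Submodule (ZMod q) V where
  carrier := {v | ρ g v = v}
  add_mem' := by
    intro x y hx hy
    simp only [Set.mem_ofPred_eq] at hx hy ⊢
    rw [map_add, hx, hy]
  zero_mem' := by simp
  smul_mem' := by
    intro c x hx
    simp only [Set.mem_ofPred_eq] at hx ⊢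
    rw [map_smul, hx]

theorem mem_Fx (ρ : G →* (V ≃ₗ[ZMod q] V)) (v : V) (g : G) : v ∈ Fx ρ g ↔ ρ g v = v := Iff.rfl

theorem Fx_conj (ρ : G →* (V ≃ₗ[ZMod q] V)) (g b : G) (v : V) (hv : v ∈ Fx ρ b) : ρ g v ∈ Fx ρ (g * b * g⁻¹) := by
  rw [mem_Fx] at hv ⊢
  rw [← mul_act, show g * b * g⁻¹ * g = g * b by group, mul_act, hv]

theorem smul_cancel [Fact q.Prime] (hq2 : q ≠ 2) {v : V} (h : v + v = 0) : v = 0 := by
  have h1 : ((2 : ZMod q)) • v = 0 := by rw [two_smul]; exact h
  have h2 : (2 : ZMod q) ≠ 0 := by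
    intro h
    have h3 : ((2 : ℕ) : ZMod q) = 0 := by exact_mod_cast h
    rw [ZMod.natCast_eq_zero_iff] at h3
    exact hq2 ((Nat.prime_dvd_prime_iff_eq (Fact.out : q.Prime) Nat.prime_two).mp h3)
  exact (smul_eq_zero.mp h1).resolve_left h2

theorem two_pow_smul_cancel [Fact q.Prime] (hq2 : q ≠ 2) (k : ℕ) {W : Submodule (ZMod q) V} {v : V}
    (h : (2 ^ k : ℕ) • v ∈ W) : v ∈ W := by
  have h2 : ((2 ^ k : ℕ) : ZMod q) ≠ 0 := by
    intro h
    rw [ZMod.natCast_eq_zero_iff] at h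
    have := (Fact.out : q.Prime).dvd_of_dvd_pow h
    exact hq2 ((Nat.prime_dvd_prime_iff_eq (Fact.out : q.Prime) Nat.prime_two).mp this)
  rw [← Nat.cast_smul_eq_nsmul (ZMod q)] at h
  exact (W.smul_mem_iff h2).mp h

/-- a half-transitive linear 2-group which is reducible is semiregular -/
theorem irreducible [Fact q.Prime] (hq2 : q ≠ 2) [Finite G] (hG : IsPGroup 2 G)
    (ρ : G →* (V ≃ₗ[ZMod q] V)) (hρ : Function.Injective ρ) (c : ℕ)
    (hc : ∀ v : V, v ≠ 0 → Nat.card (St ρ v) = c) (hc1 : c ≠ 1)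
    (W : Submodule (ZMod q) V) (hW : ∀ g : G, ∀ w ∈ W, ρ g w ∈ W) : W = ⊥ ∨ W = ⊤ := by
  classical
  by_contra hcon
  push Not at hcon
  obtain ⟨hW1, hW2⟩ := hcon
  obtain ⟨w0, hw0, hw00⟩ := (Submodule.ne_bot_iff W).mp hW1
  obtain ⟨v0, hv0⟩ : ∃ v, v ∉ W := by
    by_contra hcon
    push Not at hcon
    exact hW2 (eq_top_iff.mpr fun v _ => hcon v)
  -- stabiliser of a coset
  let S : V → Subgroup G := fun v =>
    { carrier := {g | ρ g v - v ∈ W}
      mul_mem' := by
        intro x y hx hy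
        simp only [Set.mem_ofPred_eq] at hx hy ⊢
        rw [mul_act]
        have h1 : ρ x (ρ y v) - v = ρ x (ρ y v - v) + (ρ x v - v) := by rw [map_sub]; abel
        rw [h1]
        exact W.add_mem (hW x _ hy) hx
      one_mem' := by simp
      inv_mem' := by
        intro x hx
        simp only [Set.mem_ofPred_eq] at hx ⊢
        have h1 : ρ x⁻¹ v - v = - (ρ x⁻¹ (ρ x v - v)) := by rw [map_sub, inv_act]; abel
        rw [h1]
        exact W.neg_mem (hW _ _ hx) }
  have hS : ∀ v g, g ∈ S v ↔ ρ g v - v ∈ W := fun v g => Iff.rfl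
  have key : ∀ v, v ∉ W → St ρ v = S v := by
    intro v hv
    have := Fintype.ofFinite (S v)
    obtain ⟨k, hk⟩ := IsPGroup.iff_card.mp (hG.to_subgroup (S v))
    let u : V := ∑ g : S v, ρ (g : G) v
    have hu1 : u - (2 ^ k : ℕ) • v ∈ W := by
      have : u - (2 ^ k : ℕ) • v = ∑ g : S v, (ρ (g : G) v - v) := by
        rw [Finset.sum_sub_distrib, Finset.sum_const, Finset.card_univ, ← Nat.card_eq_fintype_card, hk]
      rw [this]
      exact Submodule.sum_mem _ fun g _ => g.2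
    have huW : u ∉ W := by
      intro huW
      apply hv
      apply two_pow_smul_cancel hq2 k
      have := W.sub_mem huW hu1
      rwa [sub_sub_cancel] at this
    have hu0 : u ≠ 0 := by rintro h; exact huW (h ▸ W.zero_mem)
    have hv00 : v ≠ 0 := by rintro rfl; exact hv W.zero_mem
    have h1 : S v ≤ St ρ u := by
      intro h hh
      rw [mem_St, map_sum]
      have h2 : ∀ g : S v, ρ h (ρ (g : G) v) = ρ (((⟨h, hh⟩ : S v) * g : S v) : G) v := by
        intro g
        rw [← mul_act]; rfl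
      rw [Finset.sum_congr rfl fun g _ => h2 g]
      exact Equiv.sum_comp (Equiv.mulLeft (⟨h, hh⟩ : S v)) (fun g : S v => ρ (g : G) v)
    have h3 : St ρ v ≤ S v := by
      intro g hg
      rw [hS, (mem_St ρ v g).mp hg, sub_self]; exact W.zero_mem
    apply le_antisymm h3
    have h4 : St ρ v = St ρ u := Subgroup.eq_of_le_of_card_ge (h3.trans h1) (by rw [hc v hv00, hc u hu0])
    rw [h4]; exact h1
  have key2 : ∀ v, v ∉ W → ∀ w ∈ W, w ≠ 0 → St ρ v = St ρ w := by
    intro v hv w hw hw1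
    have hvw : v + w ∉ W := by
      intro h
      exact hv (by have := W.sub_mem h hw; rwa [add_sub_cancel_right] at this)
    have h1 : St ρ (v + w) = St ρ v := by
      rw [key _ hvw, key v hv]
      ext g
      rw [hS, hS, map_add]
      have h2 : ρ g v + ρ g w - (v + w) = (ρ g v - v) + (ρ g w - w) := by abel
      rw [h2]
      have h3 : ρ g w - w ∈ W := W.sub_mem (hW g w hw) hw
      constructor
      · intro h
        have := W.sub_mem h h3
        rwa [add_sub_cancel_right] at this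
      · intro h
        exact W.add_mem h h3
    apply Subgroup.eq_of_le_of_card_ge
    · intro g hg
      have h2 : g ∈ St ρ (v + w) := by rw [h1]; exact hg
      rw [mem_St] at hg h2 ⊢
      rw [map_add, hg] at h2
      exact add_left_cancel h2
    · rw [hc v (by rintro rfl; exact hv W.zero_mem), hc w hw1]
  have h5 : ∀ v, St ρ v0 ≤ St ρ v := by
    intro v
    by_cases hv : v = 0
    · subst hv
      intro g _
      rw [mem_St, map_zero]
    · by_cases hvW : v ∈ W
      · exact (key2 v0 hv0 v hvW hv).le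
      · rw [key2 v0 hv0 w0 hw0 hw00, key2 v hvW w0 hw0 hw00]
  have h6 : St ρ v0 = ⊥ := by
    rw [eq_bot_iff]
    intro g hg
    rw [Subgroup.mem_bot]
    apply hρ
    rw [map_one]
    ext v
    exact h5 v hg
  have h7 := hc v0 (by rintro rfl; exact hv0 W.zero_mem)
  rw [h6, Subgroup.card_bot] at h7
  exact hc1 h7.symm

theorem neg_of_semi [Fact q.Prime] (ρ : G →* (V ≃ₗ[ZMod q] V)) {t : G} (ht : t ^ 2 = 1)
    (hfix : ∀ v : V, ρ t v = v → v = 0) (v : V) : ρ t v = - v := by
  have h1 : ρ t (v + ρ t v) = v + ρ t v := by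
    rw [map_add, ← mul_act, ← pow_two, ht, map_one, add_comm]; rfl
  have := hfix _ h1
  rw [add_comm] at this
  exact eq_neg_of_add_eq_zero_left this

/-- semiregular linear 2-groups -/
theorem semiregular [Fact q.Prime] [Finite G] (hG : IsPGroup 2 G)
    (ρ : G →* (V ≃ₗ[ZMod q] V)) (hρ : Function.Injective ρ)
    (hs : ∀ v : V, v ≠ 0 → ∀ g : G, ρ g v = v → g = 1) :
    IsCyclic G ∨ ∃ n : ℕ, Nonempty (G ≃* QuaternionGroup n) := by
  have huniq : ∀ s t : G, orderOf s = 2 → orderOf t = 2 → s = t := by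
    intro s t hs2 ht2
    have h1 : ∀ s : G, orderOf s = 2 → ∀ v, ρ s v = - v := by
      intro s hs2
      apply neg_of_semi ρ (by rw [← hs2, pow_orderOf_eq_one])
      intro v hv
      by_contra hv0
      have := hs v hv0 s hv
      rw [this, orderOf_one] at hs2
      omega
    apply hρ
    ext v
    rw [h1 s hs2, h1 t ht2]
  have := Fact.mk Nat.prime_two
  rcases H1.UniqueSub.cyclic_or_quaternion 2 hG (by
    intro H K hH hK
    obtain ⟨s, hs1⟩ := exists_prime_orderOf_dvd_card' (G := H) 2 (by rw [hH])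
    obtain ⟨t, ht1⟩ := exists_prime_orderOf_dvd_card' (G := K) 2 (by rw [hK])
    have h1 : ∀ (L : Subgroup G), Nat.card L = 2 → ∀ s : L, orderOf s = 2 → L = Subgroup.zpowers (s : G) := by
      intro L hL s hs
      symm
      apply Subgroup.eq_of_le_of_card_ge
      · rw [Subgroup.zpowers_le]; exact s.2
      · rw [Nat.card_zpowers, Subgroup.orderOf_coe, hs, hL]
    rw [h1 H hH s hs1, h1 K hK t ht1]
    have := huniq (s : G) (t : G) (by rw [Subgroup.orderOf_coe]; exact hs1) (by rw [Subgroup.orderOf_coe]; exact ht1)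
    rw [this]) with h | ⟨-, n, h⟩
  · exact Or.inl h
  · exact Or.inr ⟨_, h⟩

end St

end H60.HalfTransA
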