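import Mathlib
import Cfsg.Agent.Lib.H60.HalfTransA

/-! Half-transitive linear 2-groups: the imprimitive case (helper60). -/

set_option autoImplicit false
set_option linter.unusedSectionVars false
set_option linter.unusedVariables false

namespace H60.HalfTransB

open H60.HalfTransA

theorem mem_zpowers_two {G : Type*} [Group G] {z : G} (hz : orderOf z = 2) {x : G} (hx : x ∈ Subgroup.zpowers z) :
    x = 1 ∨ x = z := by
  have hz2 : z ^ 2 = 1 := by rw [← hz, pow_orderOf_eq_one]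
  obtain ⟨k, rfl⟩ := Subgroup.mem_zpowers_iff.mp hx
  rcases Int.even_or_odd' k with ⟨m, rfl | rfl⟩
  · left
    rw [zpow_mul]
    have : z ^ (2 : ℤ) = 1 := by exact_mod_cast hz2
    rw [this, one_zpow]
  · right
    rw [zpow_add, zpow_mul]
    have : z ^ (2 : ℤ) = 1 := by exact_mod_cast hz2
    rw [this, one_zpow, one_mul, zpow_one]

variable {q : ℕ} {V : Type*} [AddCommGroup V] [Module (ZMod q) V] {G : Type*} [Group G]

/-- the data of the imprimitive case -/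
structure Dat (ρ : G →* (V ≃ₗ[ZMod q] V)) (z a : G) (c : ℕ) : Prop where
  hq2 : q ≠ 2
  inj : Function.Injective ρ
  hc : ∀ v : V, v ≠ 0 → Nat.card (St ρ v) = c
  irr : ∀ W : Submodule (ZMod q) V, (∀ g : G, ∀ w ∈ W, ρ g w ∈ W) → W = ⊥ ∨ W = ⊤
  zc : z ∈ Subgroup.center G
  z2 : orderOf z = 2
  a2 : a ^ 2 = 1
  az : a ∉ Subgroup.zpowers z
  comm : ∀ g : G, g * a * g⁻¹ * a⁻¹ ∈ Subgroup.zpowers z

namespace Dat

variable {ρ : G →* (V ≃ₗ[ZMod q] V)} {z a : G} {c : ℕ} [Fact q.Prime]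

theorem zcomm (h : Dat ρ z a c) (g : G) : g * z = z * g := Subgroup.mem_center_iff.mp h.zc g

theorem zsq (h : Dat ρ z a c) : z ^ 2 = 1 := by rw [← h.z2, pow_orderOf_eq_one]

theorem zne (h : Dat ρ z a c) : z ≠ 1 := by
  rintro rfl
  have := h.z2
  rw [orderOf_one] at this
  omega

theorem zneg (h : Dat ρ z a c) (v : V) : ρ z v = - v := by
  apply neg_of_semi ρ h.zsq
  have h1 : Fx ρ z = ⊥ := by
    rcases h.irr (Fx ρ z) (by
      intro g w hw
      have := Fx_conj ρ g z w hw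
      rwa [show g * z * g⁻¹ = z by rw [h.zcomm g]; group] at this) with h' | h'
    · exact h'
    · exfalso
      apply h.zne
      apply h.inj
      rw [map_one]
      ext v
      have : v ∈ Fx ρ z := by rw [h']; trivial
      exact this
  intro v hv
  have : v ∈ Fx ρ z := hv
  rw [h1] at this
  exact (Submodule.mem_bot _).mp this

theorem mem_V2 (h : Dat ρ z a c) (v : V) : v ∈ Fx ρ (a * z) ↔ ρ a v = - v := by
  rw [mem_Fx, mul_act, h.zneg, map_neg, neg_eq_iff_eq_neg]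

theorem conj (h : Dat ρ z a c) (g : G) : g * a * g⁻¹ = a ∨ g * a * g⁻¹ = a * z := by
  rcases mem_zpowers_two h.z2 (h.comm g) with h1 | h1
  · left
    rw [mul_inv_eq_one] at h1
    exact h1
  · right
    rw [mul_inv_eq_iff_eq_mul] at h1
    rw [h1, h.zcomm]

theorem ane (h : Dat ρ z a c) : a ≠ 1 := by
  rintro rfl
  exact h.az (Subgroup.one_mem _)

theorem anez (h : Dat ρ z a c) : a ≠ z := by
  rintro rfl
  exact h.az (Subgroup.mem_zpowers a)

theorem aa (h : Dat ρ z a c) (v : V) : ρ a (ρ a v) = v := by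
  rw [← mul_act, ← pow_two, h.a2, map_one]; rfl

theorem add_mem (h : Dat ρ z a c) (v : V) : v + ρ a v ∈ Fx ρ a := by
  rw [mem_Fx, map_add, h.aa, add_comm]

theorem sub_mem (h : Dat ρ z a c) (v : V) : v - ρ a v ∈ Fx ρ (a * z) := by
  rw [h.mem_V2, map_sub, h.aa]; abel

theorem isCompl (h : Dat ρ z a c) : IsCompl (Fx ρ a) (Fx ρ (a * z)) := by
  constructor
  · rw [Submodule.disjoint_def]
    intro v h1 h2
    rw [h.mem_V2, (mem_Fx ρ v a).mp h1] at h2
    exact smul_cancel h.hq2 (add_eq_zero_iff_eq_neg.mpr h2)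
  · rw [codisjoint_iff, eq_top_iff]
    intro v _
    have h1 : (v + ρ a v) + (v - ρ a v) ∈ Fx ρ a ⊔ Fx ρ (a * z) :=
      Submodule.add_mem_sup (h.add_mem v) (h.sub_mem v)
    apply two_pow_smul_cancel h.hq2 1
    rw [pow_one, two_smul]
    have h2 : (v + ρ a v) + (v - ρ a v) = v + v := by abel
    rwa [h2] at h1

theorem V1_ne (h : Dat ρ z a c) : Fx ρ a ≠ ⊥ := by
  intro h1
  apply h.anez
  apply h.inj
  ext v
  rw [h.zneg]
  have := h.add_mem v
  rw [h1, Submodule.mem_bot, add_comm] at this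
  exact eq_neg_of_add_eq_zero_left this

theorem V2_ne (h : Dat ρ z a c) : Fx ρ (a * z) ≠ ⊥ := by
  intro h1
  apply h.ane
  apply h.inj
  rw [map_one]
  ext v
  have := h.sub_mem v
  rw [h1, Submodule.mem_bot, sub_eq_zero] at this
  exact this.symm

theorem map_V1 (h : Dat ρ z a c) {g : G} (hg : g * a * g⁻¹ = a * z) {v : V} (hv : v ∈ Fx ρ a) :
    ρ g v ∈ Fx ρ (a * z) := by
  have := Fx_conj ρ g a v hv
  rwa [hg] at this

theorem map_V2 (h : Dat ρ z a c) {g : G} (hg : g * a * g⁻¹ = a * z) {v : V} (hv : v ∈ Fx ρ (a * z)) :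
    ρ g v ∈ Fx ρ a := by
  have := Fx_conj ρ g (a * z) v hv
  have h1 : g * (a * z) * g⁻¹ = a := by
    calc g * (a * z) * g⁻¹ = g * a * (z * g⁻¹) := by group
      _ = g * a * g⁻¹ * z := by rw [← h.zcomm]; group
      _ = a * z * z := by rw [hg]
      _ = a * z ^ 2 := by rw [mul_assoc, ← pow_two]
      _ = a := by rw [h.zsq, mul_one]
  rwa [h1] at this

theorem fix_V1 (h : Dat ρ z a c) {g : G} (hg : g * a * g⁻¹ = a) {v : V} (hv : v ∈ Fx ρ a) :
    ρ g v ∈ Fx ρ a := by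
  have := Fx_conj ρ g a v hv
  rwa [hg] at this

theorem fix_V2 (h : Dat ρ z a c) {g : G} (hg : g * a * g⁻¹ = a) {v : V} (hv : v ∈ Fx ρ (a * z)) :
    ρ g v ∈ Fx ρ (a * z) := by
  have := Fx_conj ρ g (a * z) v hv
  have h1 : g * (a * z) * g⁻¹ = a * z := by
    calc g * (a * z) * g⁻¹ = g * a * (z * g⁻¹) := by group
      _ = g * a * g⁻¹ * z := by rw [← h.zcomm]; group
      _ = a * z := by rw [hg]
  rwa [h1] at this

theorem add_cancel (h : Dat ρ z a c) {v1 v2 w1 w2 : V} (hv1 : v1 ∈ Fx ρ a) (hw1 : w1 ∈ Fx ρ a)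
    (hv2 : v2 ∈ Fx ρ (a * z)) (hw2 : w2 ∈ Fx ρ (a * z)) (he : v1 + v2 = w1 + w2) : v1 = w1 ∧ v2 = w2 := by
  have h1 : v1 - w1 = w2 - v2 := by
    rw [sub_eq_sub_iff_add_eq_add, he, add_comm]
  have h2 : v1 - w1 ∈ Fx ρ a := Submodule.sub_mem _ hv1 hw1
  have h3 : v1 - w1 ∈ Fx ρ (a * z) := by rw [h1]; exact Submodule.sub_mem _ hw2 hv2
  have h4 : v1 - w1 = 0 := Submodule.disjoint_def.mp h.isCompl.disjoint _ h2 h3
  have h5 : v1 = w1 := sub_eq_zero.mp h4
  refine ⟨h5, ?_⟩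
  rw [h5] at he
  exact add_left_cancel he

theorem St_sum_of_fix (h : Dat ρ z a c) {v1 v2 : V} (hv1 : v1 ∈ Fx ρ a) (hv2 : v2 ∈ Fx ρ (a * z))
    {g : G} (hg : g * a * g⁻¹ = a) (hgv : g ∈ St ρ (v1 + v2)) : ρ g v1 = v1 ∧ ρ g v2 = v2 := by
  rw [mem_St, map_add] at hgv
  exact h.add_cancel (h.fix_V1 hg hv1) hv1 (h.fix_V2 hg hv2) hv2 hgv

theorem swap [Finite G] (h : Dat ρ z a c) {v1 v2 : V} (hv1 : v1 ∈ Fx ρ a) (hv10 : v1 ≠ 0)
    (hv2 : v2 ∈ Fx ρ (a * z)) (hv20 : v2 ≠ 0) :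
    ∃ g : G, g * a * g⁻¹ = a * z ∧ ρ g v1 = v2 ∧ ρ g v2 = v1 := by
  by_contra hcon
  push Not at hcon
  have hv0 : v1 + v2 ≠ 0 := by
    intro h0
    have := h.add_cancel hv1 (Submodule.zero_mem _) hv2 (Submodule.zero_mem _) (by rw [h0, add_zero])
    exact hv10 this.1
  have h1 : St ρ (v1 + v2) ≤ St ρ v1 := by
    intro g hg
    rcases h.conj g with h2 | h2
    · exact (h.St_sum_of_fix hv1 hv2 h2 hg).1
    · exfalso
      rw [mem_St, map_add, add_comm] at hg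
      have := h.add_cancel (h.map_V2 h2 hv2) hv1 (h.map_V1 h2 hv1) hv2 hg
      exact hcon g h2 this.2 this.1
  have h2 : St ρ (v1 + v2) = St ρ v1 :=
    Subgroup.eq_of_le_of_card_ge h1 (by rw [h.hc _ hv0, h.hc _ hv10])
  have h3 : a ∈ St ρ (v1 + v2) := by rw [h2]; exact hv1
  have h4 := h.St_sum_of_fix hv1 hv2 (g := a) (by group) h3
  rw [h.mem_V2] at hv2
  rw [hv2] at h4
  apply hv20
  exact smul_cancel h.hq2 (by
    have := h4.2
    nth_rewrite 1 [← this]
    exact neg_add_cancel v2)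

theorem card_V1 [Finite G] [Finite V] (h : Dat ρ z a c) (hG : IsPGroup 2 G) :
    ∃ j : ℕ, Nat.card (Fx ρ a) - 1 = 2 ^ j := by
  obtain ⟨v1, hv1, hv10⟩ := (Submodule.ne_bot_iff _).mp h.V1_ne
  obtain ⟨v2, hv2, hv20⟩ := (Submodule.ne_bot_iff _).mp h.V2_ne
  let H : Subgroup G := Subgroup.centralizer {a}
  have hH : ∀ g, g ∈ H ↔ g * a * g⁻¹ = a := by
    intro g
    rw [Subgroup.mem_centralizer_singleton_iff, mul_inv_eq_iff_eq_mul]
  have h1 := card_orbit_mul (ρ.comp H.subtype) v1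
  have h2 : {u : V | ∃ g : H, (ρ.comp H.subtype) g v1 = u} = (Fx ρ a : Set V) \ {0} := by
    ext u
    constructor
    · rintro ⟨g, rfl⟩
      refine ⟨h.fix_V1 ((hH g).mp g.2) hv1, ?_⟩
      intro h0
      apply hv10
      have : ρ (g : G) v1 = 0 := h0
      exact (map_eq_zero_iff _ (ρ (g : G)).injective).mp this
    · rintro ⟨hu, hu0⟩
      obtain ⟨g, hg, hg1, hg2⟩ := h.swap hv1 hv10 hv2 hv20
      obtain ⟨g', hg', hg1', hg2'⟩ := h.swap hu hu0 hv2 hv20
      refine ⟨⟨g'⁻¹ * g, ?_⟩, ?_⟩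
      · rw [hH]
        calc g'⁻¹ * g * a * (g'⁻¹ * g)⁻¹ = g'⁻¹ * (g * a * g⁻¹) * g' := by group
          _ = g'⁻¹ * (g' * a * g'⁻¹) * g' := by rw [hg, hg']
          _ = a := by group
      · show ρ (g'⁻¹ * g) v1 = u
        rw [mul_act, hg1, ← hg1', inv_act]
  have h3 : Nat.card {u : V | ∃ g : H, (ρ.comp H.subtype) g v1 = u} = Nat.card (Fx ρ a) - 1 := by
    rw [h2, Nat.card_coe_set_eq, Set.ncard_sdiff_singleton_of_mem (Submodule.zero_mem _)]
    rfl
  rw [h3] at h1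
  obtain ⟨k, hk⟩ := IsPGroup.iff_card.mp (hG.to_subgroup H)
  rw [hk] at h1
  obtain ⟨j, -, hj⟩ := (Nat.dvd_prime_pow Nat.prime_two).mp (Dvd.intro _ h1)
  exact ⟨j, hj⟩

theorem card_V [Finite G] [Finite V] (h : Dat ρ z a c) : Nat.card V = Nat.card (Fx ρ a) ^ 2 := by
  obtain ⟨v1, hv1, hv10⟩ := (Submodule.ne_bot_iff _).mp h.V1_ne
  obtain ⟨v2, hv2, hv20⟩ := (Submodule.ne_bot_iff _).mp h.V2_ne
  obtain ⟨g, hg, -, -⟩ := h.swap hv1 hv10 hv2 hv20
  have h1 : Nat.card (Fx ρ a) = Nat.card (Fx ρ (a * z)) := by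
    apply le_antisymm
    · apply Nat.card_le_card_of_injective
        (fun v : Fx ρ a => (⟨ρ g v, h.map_V1 hg v.2⟩ : Fx ρ (a * z)))
      intro x y hxy
      exact Subtype.ext ((ρ g).injective (congrArg Subtype.val hxy))
    · apply Nat.card_le_card_of_injective
        (fun v : Fx ρ (a * z) => (⟨ρ g v, h.map_V2 hg v.2⟩ : Fx ρ a))
      intro x y hxy
      exact Subtype.ext ((ρ g).injective (congrArg Subtype.val hxy))
  have h2 := Nat.card_congr (Submodule.prodEquivOfIsCompl _ _ h.isCompl).toEquiv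
  rw [Nat.card_prod, ← h1] at h2
  rw [← h2, pow_two]

theorem c_le [Finite G] (h : Dat ρ z a c) {e1 : V} (he1 : e1 ∈ Fx ρ a) (he10 : e1 ≠ 0)
    (hspan1 : ∀ v ∈ Fx ρ a, ∃ x : ZMod q, v = x • e1) {e2 : V} (he2 : e2 ∈ Fx ρ (a * z)) (he20 : e2 ≠ 0)
    (hspan2 : ∀ v ∈ Fx ρ (a * z), ∃ x : ZMod q, v = x • e2) : c ≤ 2 := by
  have hv0 : e1 + e2 ≠ 0 := by
    intro h0
    have := h.add_cancel he1 (Submodule.zero_mem _) he2 (Submodule.zero_mem _) (by rw [h0, add_zero])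
    exact he10 this.1
  -- elements fixing e1 and e2 are trivial
  have htriv : ∀ g : G, ρ g e1 = e1 → ρ g e2 = e2 → g = 1 := by
    intro g h1 h2
    apply h.inj
    rw [map_one]
    ext v
    have hv : v ∈ Fx ρ a ⊔ Fx ρ (a * z) := by rw [h.isCompl.sup_eq_top]; trivial
    obtain ⟨y, hy, w, hw, rfl⟩ := Submodule.mem_sup.mp hv
    obtain ⟨x, rfl⟩ := hspan1 y hy
    obtain ⟨x', rfl⟩ := hspan2 w hw
    show ρ g (x • e1 + x' • e2) = x • e1 + x' • e2
    rw [map_add, map_smul, map_smul, h1, h2]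
  rw [← h.hc _ hv0]
  -- any two nontrivial elements of the stabiliser agree
  have key : ∀ g ∈ St ρ (e1 + e2), g ≠ 1 → g * a * g⁻¹ = a * z := by
    intro g hg hg1
    rcases h.conj g with h1 | h1
    · exfalso
      have := h.St_sum_of_fix he1 he2 h1 hg
      exact hg1 (htriv g this.1 this.2)
    · exact h1
  have key2 : ∀ g ∈ St ρ (e1 + e2), g ≠ 1 → ∀ k ∈ St ρ (e1 + e2), k ≠ 1 → g = k := by
    intro g hg hg1 k hk hk1
    have h1 := key g hg hg1
    have h2 := key k hk hk1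
    have h3 : (k⁻¹ * g) * a * (k⁻¹ * g)⁻¹ = a := by
      calc k⁻¹ * g * a * (k⁻¹ * g)⁻¹ = k⁻¹ * (g * a * g⁻¹) * k := by group
        _ = k⁻¹ * (k * a * k⁻¹) * k := by rw [h1, h2]
        _ = a := by group
    have h4 := h.St_sum_of_fix he1 he2 h3 ((St ρ _).mul_mem ((St ρ _).inv_mem hk) hg)
    have h5 := htriv _ h4.1 h4.2
    exact (inv_mul_eq_one.mp h5).symm
  by_contra hlt
  push Not at hlt
  have hnt : Nontrivial (St ρ (e1 + e2)) := Finite.one_lt_card_iff_nontrivial.mp (by omega)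
  obtain ⟨g, hg1⟩ := exists_ne (1 : St ρ (e1 + e2))
  have : Nat.card (St ρ (e1 + e2)) ≤ 2 := by
    have hsub : ((St ρ (e1 + e2) : Subgroup G) : Set G) ⊆ {1, (g : G)} := by
      intro k hk
      by_cases hk1 : k = 1
      · left; exact hk1
      · right
        exact key2 k hk hk1 g g.2 (fun h => hg1 (Subtype.ext h))
    have h1 := Set.ncard_le_ncard hsub (Set.toFinite _)
    have h2 := Set.ncard_insert_le (1 : G) {(g : G)}
    rw [Set.ncard_singleton] at h2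
    exact h1.trans h2
  omega

end Dat

/-- the imprimitive case with one-dimensional blocks -/
theorem final [Fact q.Prime] [Finite G] [Finite V] {ρ : G →* (V ≃ₗ[ZMod q] V)} {z a : G} {c : ℕ} (h : Dat ρ z a c)
    (hcard : Nat.card (Fx ρ a) = q) :
    ∃ e : V ≃ₗ[ZMod q] (Fin 2 → ZMod q), ∀ f : (Fin 2 → ZMod q) ≃ₗ[ZMod q] (Fin 2 → ZMod q),
        (∃ g : G, f = e.symm.trans ((ρ g).trans e)) ↔
        ∃ a s : ZMod q, a ≠ 0 ∧ (s = 1 ∨ s = -1) ∧
          ((∀ v, f v = ![a * v 0, s * a⁻¹ * v 1]) ∨ (∀ v, f v = ![s * a⁻¹ * v 1, a * v 0])) := by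
  obtain ⟨e1, he1, he10⟩ := (Submodule.ne_bot_iff _).mp h.V1_ne
  obtain ⟨e2, he2, he20⟩ := (Submodule.ne_bot_iff _).mp h.V2_ne
  obtain ⟨g0, hg0, hg01, hg02⟩ := h.swap he1 he10 he2 he20
  have hq : q.Prime := Fact.out
  have hspan1 : ∀ v ∈ Fx ρ a, ∃ x : ZMod q, v = x • e1 := by
    intro v hv
    have h1 : Function.Injective (fun x : ZMod q => (⟨x • e1, Submodule.smul_mem _ x he1⟩ : Fx ρ a)) := by
      intro x y hxy
      have h2 : x • e1 = y • e1 := congrArg Subtype.val hxy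
      exact smul_left_injective _ he10 h2
    have h2 : Function.Surjective (fun x : ZMod q => (⟨x • e1, Submodule.smul_mem _ x he1⟩ : Fx ρ a)) := by
      have := (Nat.bijective_iff_injective_and_card (fun x : ZMod q => (⟨x • e1, Submodule.smul_mem _ x he1⟩ : Fx ρ a))).mpr
        ⟨h1, by rw [hcard, Nat.card_zmod]⟩
      exact this.2
    obtain ⟨x, hx⟩ := h2 ⟨v, hv⟩
    exact ⟨x, (congrArg Subtype.val hx).symm⟩
  have hspan2 : ∀ v ∈ Fx ρ (a * z), ∃ x : ZMod q, v = x • e2 := by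
    intro v hv
    obtain ⟨x, hx⟩ := hspan1 _ (h.map_V2 hg0 hv)
    refine ⟨x, ?_⟩
    apply (ρ g0).injective
    rw [hx, map_smul, hg02]
  have hc2 : c ≤ 2 := h.c_le he1 he10 hspan1 he2 he20 hspan2
  -- elements fixing e1 : 1 and a
  have hste1 : ∀ g : G, ρ g e1 = e1 → g = 1 ∨ g = a := by
    intro g hg
    by_contra hcon
    push Not at hcon
    have hsub : ({1, a, g} : Set G) ⊆ (St ρ e1 : Set G) := by
      rintro x (rfl | rfl | rfl)
      · exact (St ρ e1).one_mem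
      · exact he1
      · exact hg
    have h1 := Set.ncard_le_ncard hsub (Set.toFinite _)
    have h2 : ({1, a, g} : Set G).ncard = 3 :=
      Set.ncard_eq_three.mpr ⟨1, a, g, h.ane.symm, Ne.symm hcon.1, Ne.symm hcon.2, rfl⟩
    have h3 : (St ρ e1 : Set G).ncard = c := by rw [← h.hc e1 he10]; rfl
    omega
  -- the diagonal elements
  have hdiag : ∀ x : ZMod q, x ≠ 0 → ∃ g : G, ρ g e1 = x • e1 ∧ ρ g e2 = x⁻¹ • e2 := by
    intro x hx
    obtain ⟨g, hg, hg1, hg2⟩ := h.swap he1 he10 (Submodule.smul_mem _ x he2) (smul_ne_zero hx he20)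
    refine ⟨g0 * g, ?_, ?_⟩
    · rw [mul_act, hg1, map_smul, hg02]
    · have h1 : ρ g e2 = x⁻¹ • e1 := by
        rw [map_smul] at hg2
        rw [← hg2, smul_smul, inv_mul_cancel₀ hx, one_smul]
      rw [mul_act, h1, map_smul, hg01]
  have hae1 : ρ a e1 = e1 := he1
  have hae2 : ρ a e2 = - e2 := (h.mem_V2 e2).mp he2
  -- coordinates
  let φ : (Fin 2 → ZMod q) →ₗ[ZMod q] V :=
    { toFun := fun w => w 0 • e1 + w 1 • e2
      map_add' := by
        intro x y
        simp only [Pi.add_apply, add_smul]; abel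
      map_smul' := by
        intro x y
        simp only [Pi.smul_apply, smul_eq_mul, RingHom.id_apply, smul_add, smul_smul] }
  have hφ : ∀ w, φ w = w 0 • e1 + w 1 • e2 := fun w => rfl
  have hφinj : Function.Injective φ := by
    rw [injective_iff_map_eq_zero]
    intro w hw
    rw [hφ] at hw
    have := h.add_cancel (Submodule.smul_mem _ (w 0) he1) (Submodule.zero_mem _)
      (Submodule.smul_mem _ (w 1) he2) (Submodule.zero_mem _) (by rw [hw, add_zero])
    ext i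
    fin_cases i
    · exact (smul_eq_zero.mp this.1).resolve_right he10
    · exact (smul_eq_zero.mp this.2).resolve_right he20
  have hφbij : Function.Bijective φ := by
    rw [Nat.bijective_iff_injective_and_card]
    refine ⟨hφinj, ?_⟩
    rw [h.card_V, hcard, Nat.card_pi]
    simp
  let e : V ≃ₗ[ZMod q] (Fin 2 → ZMod q) := (LinearEquiv.ofBijective φ hφbij).symm
  have hesymm : ∀ w, e.symm w = w 0 • e1 + w 1 • e2 := fun w => rfl
  have he_eq : ∀ v w, e v = w ↔ v = w 0 • e1 + w 1 • e2 := by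
    intro v w
    rw [← hesymm, LinearEquiv.eq_symm_apply]
  -- action in coordinates
  have hact : ∀ (g : G) (f : (Fin 2 → ZMod q) ≃ₗ[ZMod q] (Fin 2 → ZMod q)),
      f = e.symm.trans ((ρ g).trans e) ↔ ∀ w, ρ g (w 0 • e1 + w 1 • e2) = (f w) 0 • e1 + (f w) 1 • e2 := by
    intro g f
    constructor
    · intro hf w
      rw [← he_eq, hf]
      rfl
    · intro hf
      ext1 w
      symm
      show e (ρ g (e.symm w)) = f w
      rw [he_eq, hesymm]
      exact hf w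
  -- elements commuting with a
  have hcase1 : ∀ g : G, g * a * g⁻¹ = a → ∃ x s : ZMod q, x ≠ 0 ∧ (s = 1 ∨ s = -1) ∧
      ρ g e1 = x • e1 ∧ ρ g e2 = (s * x⁻¹) • e2 := by
    intro g hg
    obtain ⟨x, hx⟩ := hspan1 _ (h.fix_V1 hg he1)
    have hx0 : x ≠ 0 := by
      rintro rfl
      rw [zero_smul] at hx
      exact he10 ((map_eq_zero_iff _ (ρ g).injective).mp hx)
    obtain ⟨d, hd1, hd2⟩ := hdiag x hx0
    have h1 : ρ (d⁻¹ * g) e1 = e1 := by rw [mul_act, hx, ← hd1, inv_act]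
    rcases hste1 _ h1 with h2 | h2
    · have h3 : g = d := (inv_mul_eq_one.mp h2).symm
      refine ⟨x, 1, hx0, Or.inl rfl, hx, ?_⟩
      rw [h3, hd2, one_mul]
    · have h3 : g = d * a := by rw [← h2]; group
      refine ⟨x, -1, hx0, Or.inr rfl, hx, ?_⟩
      rw [h3, mul_act, hae2, map_neg, hd2, neg_mul, one_mul, neg_smul]
  refine ⟨e, fun f => ⟨?_, ?_⟩⟩
  · rintro ⟨g, hg⟩
    rw [hact] at hg
    have hval : ∀ (w : Fin 2 → ZMod q) (y1 y2 : ZMod q), ρ g (w 0 • e1 + w 1 • e2) = y1 • e1 + y2 • e2 →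
        f w = ![y1, y2] := by
      intro w y1 y2 hy
      rw [hg w] at hy
      apply hφinj
      rw [hφ, hφ, hy]; simp
    rcases h.conj g with h1 | h1
    · obtain ⟨x, s, hx0, hs, h2, h3⟩ := hcase1 g h1
      refine ⟨x, s, hx0, hs, Or.inl fun w => ?_⟩
      apply hval
      rw [map_add, map_smul, map_smul, h2, h3, smul_smul, smul_smul, mul_comm (w 0), mul_comm (w 1)]
    · have h2 : (g0 * g) * a * (g0 * g)⁻¹ = a := by
        calc g0 * g * a * (g0 * g)⁻¹ = g0 * (g * a * g⁻¹) * g0⁻¹ := by group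
          _ = g0 * a * (z * g0⁻¹) := by rw [h1]; group
          _ = (g0 * a * g0⁻¹) * z := by rw [← h.zcomm]; group
          _ = a * z ^ 2 := by rw [hg0, mul_assoc, ← pow_two]
          _ = a := by rw [h.zsq, mul_one]
      obtain ⟨x, s, hx0, hs, h3, h4⟩ := hcase1 _ h2
      have h5 : ρ g e1 = x • e2 := by
        apply (ρ g0).injective
        rw [← mul_act, h3, map_smul, hg02]
      have h6 : ρ g e2 = (s * x⁻¹) • e1 := by
        apply (ρ g0).injective
        rw [← mul_act, h4, map_smul, hg01]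
      refine ⟨x, s, hx0, hs, Or.inr fun w => ?_⟩
      apply hval
      rw [map_add, map_smul, map_smul, h5, h6, smul_smul, smul_smul, mul_comm (w 0), mul_comm (w 1), add_comm]
  · rintro ⟨x, s, hx0, hs, hf⟩
    obtain ⟨d, hd1, hd2⟩ := hdiag x hx0
    -- element d' with e1 ↦ x e1, e2 ↦ s x⁻¹ e2
    obtain ⟨d', hd1', hd2'⟩ : ∃ d' : G, ρ d' e1 = x • e1 ∧ ρ d' e2 = (s * x⁻¹) • e2 := by
      rcases hs with rfl | rfl
      · exact ⟨d, hd1, by rw [hd2, one_mul]⟩
      · refine ⟨d * a, by rw [mul_act, hae1, hd1], ?_⟩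
        rw [mul_act, hae2, map_neg, hd2, neg_mul, one_mul, neg_smul]
    rcases hf with hf | hf
    · refine ⟨d', (hact d' f).mpr fun w => ?_⟩
      rw [hf w, map_add, map_smul, map_smul, hd1', hd2', smul_smul, smul_smul, mul_comm (w 0), mul_comm (w 1)]
      simp
    · refine ⟨g0 * d', (hact _ f).mpr fun w => ?_⟩
      rw [hf w, map_add, map_smul, map_smul, mul_act, mul_act, hd1', hd2', map_smul, map_smul, hg01, hg02,
        smul_smul, smul_smul, mul_comm (w 0), mul_comm (w 1), add_comm]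
      simp

end H60.HalfTransB
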