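import Mathlib
import Cfsg.Prelude.Def_CaseTheorems
import Cfsg.Agent.Lib.H60.HalfTransA
import Cfsg.Agent.Lib.H60.MaxClassTwo
import Cfsg.Agent.Lib.H11.NormalRankOne

/-! Half-transitive linear 2-groups: the maximal class case (helper60). -/

set_option autoImplicit false
set_option linter.unusedSectionVars false
set_option linter.unusedVariables false

namespace H60.HalfTransC

open H60.HalfTransA

theorem invol_unique {G : Type*} [Group G] [Finite G] {A : Subgroup G} (hA : IsCyclic A) {s t : G} (hs : s ∈ A)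
    (ht : t ∈ A) (hs2 : orderOf s = 2) (ht2 : orderOf t = 2) : s = t := by
  by_contra hne
  refine H11.NormalRankOne.not_isCyclic_of_two hs ht hne ?_ ?_ ?_ ?_ hA
  · rintro rfl; rw [orderOf_one] at hs2; omega
  · rintro rfl; rw [orderOf_one] at ht2; omega
  · rw [← hs2, pow_orderOf_eq_one]
  · rw [← ht2, pow_orderOf_eq_one]

theorem exists_invol {G : Type*} [Group G] [Finite G] (hG : IsPGroup 2 G) (H : Subgroup G) (hH : H ≠ ⊥) :
    ∃ t ∈ H, orderOf t = 2 := by
  have := Fact.mk Nat.prime_two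
  have h1 : 2 ∣ Nat.card H := by
    obtain ⟨k, hk⟩ := IsPGroup.iff_card.mp (hG.to_subgroup H)
    rw [hk]
    apply dvd_pow_self
    rintro rfl
    exact hH (Subgroup.eq_bot_of_card_eq _ hk)
  obtain ⟨t, ht⟩ := exists_prime_orderOf_dvd_card' (G := H) 2 h1
  exact ⟨t, t.2, by rw [Subgroup.orderOf_coe]; exact ht⟩

section

variable {q : ℕ} {V : Type*} [AddCommGroup V] [Module (ZMod q) V] {G : Type*} [Group G]

theorem c_eq_two [Finite G] (hG : IsPGroup 2 G) (ρ : G →* (V ≃ₗ[ZMod q] V)) {c : ℕ}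
    (hc : ∀ v : V, v ≠ 0 → Nat.card (St ρ v) = c) (hc1 : c ≠ 1) {z : G} (hz2 : orderOf z = 2)
    (hz : ∀ v, ρ z v = v → v = 0) (A : Subgroup G) (hA : IsCyclic A) (hAi : A.index = 2) (hzA : z ∈ A)
    (v : V) (hv : v ≠ 0) : Nat.card (St ρ v) = 2 := by
  have h1 : St ρ v ⊓ A = ⊥ := by
    by_contra hne
    obtain ⟨t, ht, ht2⟩ := exists_invol hG _ hne
    have : t = z := invol_unique hA (Subgroup.mem_inf.mp ht).2 hzA ht2 hz2
    rw [this] at ht
    exact hv (hz v (Subgroup.mem_inf.mp ht).1)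
  have h2 : Nat.card (St ρ v) * Nat.card A ≤ Nat.card G := by
    rw [← Nat.card_prod]
    apply Nat.card_le_card_of_injective (fun p : St ρ v × A => (p.1 : G) * p.2)
    rintro ⟨a, b⟩ ⟨c, d⟩ hab
    have hab' : (a : G) * b = c * d := hab
    have h3 : (c : G)⁻¹ * a = d * (b : G)⁻¹ := by
      rw [inv_mul_eq_iff_eq_mul, ← mul_assoc, ← hab']; group
    have h4 : (c : G)⁻¹ * a ∈ St ρ v ⊓ A :=
      Subgroup.mem_inf.mpr ⟨(St ρ v).mul_mem ((St ρ v).inv_mem c.2) a.2, by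
        rw [h3]; exact A.mul_mem d.2 (A.inv_mem b.2)⟩
    rw [h1, Subgroup.mem_bot] at h4
    have h5 : (c : G) = a := inv_mul_eq_one.mp h4
    rw [h4] at h3
    have h6 : (d : G) = b := (mul_inv_eq_one.mp h3.symm)
    ext
    · exact h5.symm
    · exact h6.symm
  have h3 := A.card_mul_index
  rw [hAi] at h3
  have h4 : 0 < Nat.card A := Nat.card_pos
  have h5 : Nat.card (St ρ v) ≤ 2 := by
    by_contra hlt
    push Not at hlt
    have : 3 * Nat.card A ≤ Nat.card (St ρ v) * Nat.card A := Nat.mul_le_mul_right _ hlt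
    omega
  have h6 : 0 < Nat.card (St ρ v) := Nat.card_pos
  have h7 := hc v hv
  omega

end

/-! ### dihedral groups -/

theorem dihedral_involution {k : ℕ} (g : DihedralGroup (2 ^ (k + 3))) :
    (orderOf g = 2 ∧ g ∉ Subgroup.center (DihedralGroup (2 ^ (k + 3)))) ↔ ∃ i, g = DihedralGroup.sr i := by
  have : NeZero (2 ^ (k + 3)) := ⟨by positivity⟩
  constructor
  · rintro ⟨h2, hc⟩
    cases g with
    | sr i => exact ⟨i, rfl⟩
    | r i =>
      exfalso
      apply hc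
      have h3 : DihedralGroup.r i * DihedralGroup.r i = 1 := by
        rw [← pow_two]
        exact orderOf_dvd_iff_pow_eq_one.mp (dvd_of_eq h2)
      rw [DihedralGroup.r_mul_r, DihedralGroup.one_def] at h3
      have h4 : i + i = 0 := by injection h3
      rw [Subgroup.mem_center_iff]
      intro g
      cases g with
      | r j => rw [DihedralGroup.r_mul_r, DihedralGroup.r_mul_r, add_comm j i]
      | sr j =>
        rw [DihedralGroup.r_mul_sr, DihedralGroup.sr_mul_r]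
        congr 1
        rw [eq_sub_iff_add_eq, add_assoc, h4, add_zero]
  · rintro ⟨i, rfl⟩
    refine ⟨DihedralGroup.orderOf_sr i, ?_⟩
    intro hc
    have h1 := Subgroup.mem_center_iff.mp hc (DihedralGroup.r 1)
    rw [DihedralGroup.r_mul_sr, DihedralGroup.sr_mul_r] at h1
    have h2 : i - 1 = i + 1 := by injection h1
    have h3 : (2 : ZMod (2 ^ (k + 3))) = 0 := by
      have h5 : i = i + 1 + 1 := sub_eq_iff_eq_add.mp h2
      rw [add_assoc] at h5
      have := left_eq_add.mp h5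
      rw [← this]; norm_num
    have h4 : ((2 : ℕ) : ZMod (2 ^ (k + 3))) = 0 := by exact_mod_cast h3
    rw [ZMod.natCast_eq_zero_iff] at h4
    have h5 := Nat.le_of_dvd (by norm_num) h4
    have h6 : 2 ^ 3 ≤ 2 ^ (k + 3) := Nat.pow_le_pow_right (by norm_num) (by omega)
    omega

theorem dihedral_card {k : ℕ} {G : Type*} [Group G] (e : G ≃* DihedralGroup (2 ^ (k + 3))) :
    Nat.card {g : G // orderOf g = 2 ∧ g ∉ Subgroup.center G} = 2 ^ (k + 3) := by
  have : NeZero (2 ^ (k + 3)) := ⟨by positivity⟩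
  have h1 : ∀ g : G, (orderOf g = 2 ∧ g ∉ Subgroup.center G) ↔ ∃ i, e g = DihedralGroup.sr i := by
    intro g
    rw [← dihedral_involution]
    have h2 : orderOf (e g) = orderOf g := e.orderOf_eq g
    have h3 : e g ∈ Subgroup.center (DihedralGroup (2 ^ (k + 3))) ↔ g ∈ Subgroup.center G := by
      rw [Subgroup.mem_center_iff, Subgroup.mem_center_iff]
      constructor
      · intro h x
        apply e.injective
        rw [map_mul, map_mul, h]
      · intro h x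
        have := congrArg e (h (e.symm x))
        rwa [map_mul, map_mul, e.apply_symm_apply] at this
    rw [h2, h3]
  have h4 : Function.Bijective (fun i : ZMod (2 ^ (k + 3)) =>
      (⟨e.symm (DihedralGroup.sr i), (h1 _).mpr ⟨i, by simp⟩⟩ : {g : G // orderOf g = 2 ∧ g ∉ Subgroup.center G})) := by
    constructor
    · intro i j hij
      have := congrArg Subtype.val hij
      have h5 := e.symm.injective this
      injection h5
    · rintro ⟨g, hg⟩
      obtain ⟨i, hi⟩ := (h1 g).mp hg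
      exact ⟨i, Subtype.ext (by show e.symm _ = g; rw [← hi, e.symm_apply_apply])⟩
  rw [← Nat.card_congr (Equiv.ofBijective _ h4), Nat.card_zmod]

/-! ### semidihedral groups -/

section SD

variable {G : Type*} [Group G] [Finite G] {n : ℕ} {x y : G}

theorem sd_conj_pow (hxy : y * x * y⁻¹ = x ^ (2 ^ (n - 1) - 1)) (i : ℕ) :
    y * x ^ i * y⁻¹ = x ^ (i * (2 ^ (n - 1) - 1)) := by
  rw [← conj_pow, hxy, ← pow_mul, mul_comm]

theorem sd_sq (hn : 3 ≤ n) (hx : orderOf x = 2 ^ n) (hy : orderOf y = 2)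
    (hxy : y * x * y⁻¹ = x ^ (2 ^ (n - 1) - 1)) (i : ℕ) : (x ^ i * y) ^ 2 = 1 ↔ Even i := by
  have hy2 : y * y = 1 := by rw [← pow_two, ← hy, pow_orderOf_eq_one]
  have hyi : y⁻¹ = y := inv_eq_of_mul_eq_one_left hy2
  have hpos : 1 ≤ 2 ^ (n - 1) := Nat.one_le_two_pow
  have h1 : (x ^ i * y) ^ 2 = x ^ (i * 2 ^ (n - 1)) := by
    calc (x ^ i * y) ^ 2 = x ^ i * (y * x ^ i * y) := by rw [pow_two]; group
      _ = x ^ i * (y * x ^ i * y⁻¹) := by rw [hyi]
      _ = x ^ (i + i * (2 ^ (n - 1) - 1)) := by rw [sd_conj_pow hxy, ← pow_add]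
      _ = x ^ (i * 2 ^ (n - 1)) := by
        congr 1
        obtain ⟨m, hm⟩ : ∃ m, 2 ^ (n - 1) = m + 1 := ⟨2 ^ (n - 1) - 1, by omega⟩
        rw [hm]; simp; ring
  rw [h1, ← orderOf_dvd_iff_pow_eq_one, hx]
  obtain ⟨m, rfl⟩ : ∃ m, n = m + 1 := ⟨n - 1, by omega⟩
  rw [Nat.add_sub_cancel, pow_succ, mul_comm i, Nat.mul_dvd_mul_iff_left (by positivity), even_iff_two_dvd]

theorem sd_ne (hn : 3 ≤ n) (hx : orderOf x = 2 ^ n) : x ^ (2 ^ (n - 1) - 1) ≠ x := by
  intro h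
  have h4 : 4 ≤ 2 ^ (n - 1) := by
    calc 4 = 2 ^ 2 := by norm_num
      _ ≤ 2 ^ (n - 1) := Nat.pow_le_pow_right (by norm_num) (by omega)
  have h1 : x ^ (2 ^ (n - 1) - 1) = x ^ 1 := by rw [h, pow_one]
  rw [pow_inj_mod, hx] at h1
  have h2 : 2 ^ n = 2 * 2 ^ (n - 1) := by
    rw [← pow_succ']; congr 1; omega
  rw [Nat.mod_eq_of_lt (by omega), Nat.mod_eq_of_lt (by omega)] at h1
  omega

theorem sd_index (hG : Nat.card G = 2 ^ (n + 1)) (hx : orderOf x = 2 ^ n) : (Subgroup.zpowers x).index = 2 := by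
  have h1 := (Subgroup.zpowers x).card_mul_index
  rw [Nat.card_zpowers, hx, hG, pow_succ] at h1
  exact Nat.eq_of_mul_eq_mul_left (by positivity) h1

theorem sd_y_notMem (hn : 3 ≤ n) (hx : orderOf x = 2 ^ n)
    (hxy : y * x * y⁻¹ = x ^ (2 ^ (n - 1) - 1)) : y ∉ Subgroup.zpowers x := by
  intro h
  obtain ⟨i, rfl⟩ := Subgroup.mem_zpowers_iff.mp h
  apply sd_ne hn hx
  rw [← hxy, ← zpow_neg, ← zpow_add_one, ← zpow_add]
  simp

theorem sd_decomp (hn : 3 ≤ n) (hG : Nat.card G = 2 ^ (n + 1)) (hx : orderOf x = 2 ^ n)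
    (hxy : y * x * y⁻¹ = x ^ (2 ^ (n - 1) - 1)) (g : G) (hg : g ∉ Subgroup.zpowers x) :
    ∃ i : ℕ, i < 2 ^ n ∧ g = x ^ i * y := by
  have h1 := Subgroup.mul_mem_iff_of_index_two (sd_index hG hx) (a := g) (b := y⁻¹)
  have h2 : y⁻¹ ∉ Subgroup.zpowers x := fun h => sd_y_notMem hn hx hxy ((Subgroup.inv_mem_iff _).mp h)
  have h3 : g * y⁻¹ ∈ Subgroup.zpowers x := by rw [h1]; exact ⟨fun h => absurd h hg, fun h => absurd h h2⟩
  rw [← mem_powers_iff_mem_zpowers] at h3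
  obtain ⟨i, hi⟩ := (Submonoid.mem_powers_iff _ _).mp h3
  refine ⟨i % 2 ^ n, Nat.mod_lt _ (by positivity), ?_⟩
  rw [← hx, pow_mod_orderOf, hi]; group

theorem sd_not_central (hn : 3 ≤ n) (hx : orderOf x = 2 ^ n)
    (hxy : y * x * y⁻¹ = x ^ (2 ^ (n - 1) - 1)) (i : ℕ) : x ^ i * y ∉ Subgroup.center G := by
  intro hc
  have h1 := Subgroup.mem_center_iff.mp hc x
  apply sd_ne hn hx
  have h2 : x ^ i * (y * x * y⁻¹) = x ^ i * x := by
    calc x ^ i * (y * x * y⁻¹) = (x ^ i * y) * x * y⁻¹ := by group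
      _ = x * (x ^ i * y) * y⁻¹ := by rw [← h1]
      _ = x * x ^ i := by group
      _ = x ^ i * x := (Commute.pow_right (Commute.refl x) i).eq
  rw [hxy] at h2
  exact mul_left_cancel h2

theorem sd_central (hn : 3 ≤ n) (hG : Nat.card G = 2 ^ (n + 1)) (hx : orderOf x = 2 ^ n) (hy : orderOf y = 2)
    (hxy : y * x * y⁻¹ = x ^ (2 ^ (n - 1) - 1)) (g : G) (hg : g ∈ Subgroup.zpowers x) (hg2 : orderOf g = 2) :
    g ∈ Subgroup.center G := by
  have hpos : 1 ≤ 2 ^ (n - 1) := Nat.one_le_two_pow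
  have hg2' : g ^ 2 = 1 := by rw [← hg2, pow_orderOf_eq_one]
  rw [← mem_powers_iff_mem_zpowers] at hg
  obtain ⟨i, rfl⟩ := (Submonoid.mem_powers_iff _ _).mp hg
  have h0 : x ^ (i * 2 ^ (n - 1)) = 1 := by
    obtain ⟨m, hm⟩ : ∃ m, n - 1 = m + 1 := ⟨n - 2, by omega⟩
    rw [hm, pow_succ', ← mul_assoc, pow_mul, pow_mul, hg2', one_pow]
  have hxi : x ^ i * x ^ i = 1 := by rw [← pow_two]; exact hg2'
  have h1 : y * x ^ i * y⁻¹ = x ^ i := by
    rw [sd_conj_pow hxy]
    have h2 : x ^ i * x ^ (i * (2 ^ (n - 1) - 1)) = 1 := by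
      rw [← pow_add, ← h0]
      congr 1
      obtain ⟨m, hm⟩ : ∃ m, 2 ^ (n - 1) = m + 1 := ⟨2 ^ (n - 1) - 1, by omega⟩
      rw [hm]; simp; ring
    have h3 : x ^ i * x ^ (i * (2 ^ (n - 1) - 1)) = x ^ i * x ^ i := by rw [h2, hxi]
    exact mul_left_cancel h3
  rw [Subgroup.mem_center_iff]
  intro g
  by_cases hgx : g ∈ Subgroup.zpowers x
  · obtain ⟨j, rfl⟩ := Subgroup.mem_zpowers_iff.mp hgx
    exact ((Commute.refl x).zpow_left j |>.pow_right i).eq
  · obtain ⟨j, -, rfl⟩ := sd_decomp hn hG hx hxy g hgx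
    have h2 : y * x ^ i = x ^ i * y := mul_inv_eq_iff_eq_mul.mp h1
    rw [mul_assoc, h2, ← mul_assoc, ← mul_assoc, ← pow_add, ← pow_add, add_comm]

theorem sd_card (hn : 3 ≤ n) (hG : Nat.card G = 2 ^ (n + 1)) (hx : orderOf x = 2 ^ n) (hy : orderOf y = 2)
    (hxy : y * x * y⁻¹ = x ^ (2 ^ (n - 1) - 1)) :
    Nat.card {g : G // orderOf g = 2 ∧ g ∉ Subgroup.center G} = 2 ^ (n - 1) := by
  have h2n : 2 ^ n = 2 * 2 ^ (n - 1) := by
    rw [← pow_succ']; congr 1; omega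
  have h1 : ∀ j : ℕ, orderOf (x ^ (2 * j) * y) = 2 ∧ x ^ (2 * j) * y ∉ Subgroup.center G := by
    intro j
    have hnc := sd_not_central hn hx hxy (2 * j)
    refine ⟨?_, hnc⟩
    have := Fact.mk Nat.prime_two
    apply orderOf_eq_prime
    · rw [sd_sq hn hx hy hxy]; exact even_two_mul j
    · intro h
      rw [h] at hnc
      exact hnc (Subgroup.one_mem _)
  have h4 : Function.Bijective (fun i : Fin (2 ^ (n - 1)) =>
      (⟨x ^ (2 * (i : ℕ)) * y, h1 i⟩ : {g : G // orderOf g = 2 ∧ g ∉ Subgroup.center G})) := by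
    constructor
    · intro i j hij
      have h2 : x ^ (2 * (i : ℕ)) * y = x ^ (2 * (j : ℕ)) * y := congrArg Subtype.val hij
      have h3 := mul_right_cancel h2
      rw [pow_inj_mod, hx, Nat.mod_eq_of_lt (by omega), Nat.mod_eq_of_lt (by omega)] at h3
      ext; omega
    · rintro ⟨g, hg2, hgc⟩
      have hgx : g ∉ Subgroup.zpowers x := fun h => hgc (sd_central hn hG hx hy hxy g h hg2)
      obtain ⟨i, hi, rfl⟩ := sd_decomp hn hG hx hxy g hgx
      have h5 : (x ^ i * y) ^ 2 = 1 := by rw [← hg2, pow_orderOf_eq_one]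
      rw [sd_sq hn hx hy hxy] at h5
      obtain ⟨j, rfl⟩ := h5
      refine ⟨⟨j, by omega⟩, Subtype.ext ?_⟩
      show x ^ (2 * j) * y = x ^ (j + j) * y
      rw [two_mul]
  rw [← Nat.card_congr (Equiv.ofBijective _ h4), Nat.card_eq_fintype_card, Fintype.card_fin]

end SD

end H60.HalfTransC
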