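import Mathlib
import Cfsg.Agent.Lib.H76.PG
import Cfsg.Agent.Lib.H1.Cyc

set_option autoImplicit false

namespace H60.NormalRankTwo

open Subgroup

variable {p : ℕ} [hp : Fact p.Prime] {S : Type*} [Group S] [Finite S]

/-- A finite `p`-group with a normal noncyclic abelian subgroup has a central `z` of order `p` and an element `a` of
order `p` outside `⟨z⟩` whose conjugates all lie in `a⟨z⟩`. -/
theorem exists_pair (hS : IsPGroup p S) (B : Subgroup S) (hB : B.Normal) (hBc : IsMulCommutative B)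
    (hBn : ¬ IsCyclic B) :
    ∃ z a : S, z ∈ center S ∧ orderOf z = p ∧ a ∈ B ∧ z ∈ B ∧ a ^ p = 1 ∧ a ∉ zpowers z ∧
      ∀ g : S, g * a * g⁻¹ * a⁻¹ ∈ zpowers z := by
  have hcomm : ∀ x ∈ B, ∀ y ∈ B, x * y = y * x := by
    intro x hx y hy
    have := hBc.is_comm.comm ⟨x, hx⟩ ⟨y, hy⟩
    exact congrArg Subtype.val this
  -- Omega_1(B)
  let E : Subgroup S :=
    { carrier := {x | x ∈ B ∧ x ^ p = 1}
      mul_mem' := by
        rintro x y ⟨hx, hx1⟩ ⟨hy, hy1⟩
        refine ⟨B.mul_mem hx hy, ?_⟩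
        rw [Commute.mul_pow (hcomm x hx y hy), hx1, hy1, one_mul]
      one_mem' := ⟨B.one_mem, one_pow _⟩
      inv_mem' := by
        rintro x ⟨hx, hx1⟩
        exact ⟨B.inv_mem hx, by rw [inv_pow, hx1, inv_one]⟩ }
  have hEmem : ∀ x, x ∈ E ↔ x ∈ B ∧ x ^ p = 1 := fun x => Iff.rfl
  have hEn : E.Normal := by
    constructor
    intro x hx g
    rw [hEmem] at hx ⊢
    refine ⟨hB.conj_mem x hx.1 g, ?_⟩
    rw [conj_pow, hx.2]
    group
  obtain ⟨q, a, b, hq, ha, hb, hab⟩ := H1.Cyc.exists_of_not_isCyclic (G := B)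
    (fun a b => Subtype.ext (hcomm a a.2 b b.2)) hBn
  have hqp : q = p := by
    have h1 : q ∣ Nat.card S := by
      have h2 : orderOf (a : S) = q := by rw [orderOf_coe]; exact ha
      rw [← h2]; exact orderOf_dvd_natCard _
    obtain ⟨n, hn⟩ := IsPGroup.iff_card.mp hS
    rw [hn] at h1
    exact (Nat.prime_dvd_prime_iff_eq hq hp.out).mp (hq.dvd_of_dvd_pow h1)
  subst hqp
  have haE : (a : S) ∈ E := by
    rw [hEmem]; refine ⟨a.2, ?_⟩
    have := pow_orderOf_eq_one a
    rw [ha] at this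
    exact_mod_cast congrArg Subtype.val this
  have hbE : (b : S) ∈ E := by
    rw [hEmem]; refine ⟨b.2, ?_⟩
    have := pow_orderOf_eq_one b
    rw [hb] at this
    exact_mod_cast congrArg Subtype.val this
  have hE1 : E ≠ ⊥ := by
    intro h
    rw [h, mem_bot] at haE
    have : a = 1 := Subtype.ext haE
    rw [this, orderOf_one] at ha
    exact hp.out.one_lt.ne ha
  obtain ⟨z, hzE, hzc, hz⟩ := H76.PG.exists_center_of_normal (p := q) hS E hE1
  have hZn : (zpowers z).Normal := by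
    constructor
    intro x hx g
    obtain ⟨i, rfl⟩ := mem_zpowers_iff.mp hx
    have h1 : g * z ^ i * g⁻¹ = z ^ i := by
      have : z ^ i * g = g * z ^ i := ((mem_center_iff.mp ((center S).zpow_mem hzc i)) g).symm
      rw [← this]; group
    rw [h1]; exact hx
  -- E is not contained in zpowers z
  have hEz : ¬ E ≤ zpowers z := by
    intro hle
    have h1 : zpowers (a : S) = zpowers z := by
      apply Subgroup.eq_of_le_of_card_ge
      · rw [zpowers_le]; exact hle haE
      · rw [Nat.card_zpowers, Nat.card_zpowers, hz, orderOf_coe, ha]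
    apply hab
    have h2 := hle hbE
    rw [← h1] at h2
    obtain ⟨i, hi⟩ := mem_zpowers_iff.mp h2
    exact mem_zpowers_iff.mpr ⟨i, Subtype.ext (by rw [← hi]; rfl)⟩
  have hQ : IsPGroup q (S ⧸ zpowers z) := hS.to_quotient _
  have hEQn : (E.map (QuotientGroup.mk' (zpowers z))).Normal :=
    hEn.map _ (QuotientGroup.mk'_surjective _)
  have hEQ : E.map (QuotientGroup.mk' (zpowers z)) ≠ ⊥ := by
    intro h
    rw [Subgroup.map_eq_bot_iff, QuotientGroup.ker_mk'] at h
    exact hEz h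
  obtain ⟨w, hwE, hwc, hw⟩ := H76.PG.exists_center_of_normal (p := q) hQ _ hEQ
  obtain ⟨c, hcE, rfl⟩ := hwE
  refine ⟨z, c, hzc, hz, ((hEmem _).mp hcE).1, ((hEmem _).mp hzE).1, ((hEmem _).mp hcE).2, ?_, ?_⟩
  · intro hcz
    have h1 : (QuotientGroup.mk' (zpowers z)) c = 1 := by
      rw [QuotientGroup.mk'_apply, QuotientGroup.eq_one_iff]; exact hcz
    rw [h1, orderOf_one] at hw
    exact hp.out.one_lt.ne hw
  · intro g
    rw [← QuotientGroup.eq_one_iff]
    have h1 := (mem_center_iff.mp hwc) (QuotientGroup.mk' (zpowers z) g)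
    rw [QuotientGroup.mk'_apply, QuotientGroup.mk'_apply] at h1
    rw [QuotientGroup.mk_mul, QuotientGroup.mk_mul, QuotientGroup.mk_mul, QuotientGroup.mk_inv,
      QuotientGroup.mk_inv, h1]
    group

end H60.NormalRankTwo
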