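import Mathlib

set_option autoImplicit false

namespace H60.NumPow


theorem sq_mod_pow {a : ℕ} (ha : 1 ≤ a) (p : ℕ) (hp : p + 1 = 2 ^ a ∨ p = 2 ^ a + 1) : p ^ 2 ≡ 1 [MOD 2 ^ (a + 1)] := by
  obtain ⟨b, rfl⟩ : ∃ b, a = b + 1 := ⟨a - 1, by omega⟩
  rcases hp with hp | hp
  · have h1 : p ^ 2 + 2 ^ (b + 2) = 1 + 2 ^ (b + 2) * 2 ^ b := by
      have : (p + 1) ^ 2 = 2 ^ (b + 1) * 2 ^ (b + 1) := by rw [hp, pow_two]
      have h2 : 2 ^ (b + 2) = 2 * (p + 1) := by rw [hp]; ring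
      have h3 : 2 ^ (b + 2) * 2 ^ b = (p + 1) ^ 2 := by rw [this]; ring
      rw [h3, h2]; ring
    have h2 : p ^ 2 + 2 ^ (b + 2) ≡ 1 + 0 [MOD 2 ^ (b + 2)] := by
      rw [h1]
      exact Nat.ModEq.add_left 1 ((Nat.modEq_zero_iff_dvd).mpr ⟨_, rfl⟩)
    have h3 : p ^ 2 + 2 ^ (b + 2) ≡ p ^ 2 + 0 [MOD 2 ^ (b + 2)] :=
      Nat.ModEq.add_left _ ((Nat.modEq_zero_iff_dvd).mpr (dvd_refl _))
    exact h3.symm.trans h2
  · have h1 : p ^ 2 = 1 + 2 ^ (b + 2) * (2 ^ b + 1) := by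
      rw [hp]; ring
    rw [h1]
    exact Nat.ModEq.add_left 1 ((Nat.modEq_zero_iff_dvd).mpr ⟨_, rfl⟩)

theorem odd_pow_mod {a : ℕ} (ha : 1 ≤ a) (p k : ℕ) (hp : p + 1 = 2 ^ a ∨ p = 2 ^ a + 1) (hk : Odd k) :
    p ^ k ≡ p [MOD 2 ^ (a + 1)] := by
  obtain ⟨j, rfl⟩ := hk
  rw [pow_succ p, pow_mul]
  have h1 := (sq_mod_pow ha p hp).pow j
  rw [one_pow] at h1
  simpa using h1.mul_right p

theorem mersenne_pow {p n k : ℕ} (hp : p.Prime) (hk : 1 ≤ k) (h : p ^ k + 1 = 2 ^ n) : k = 1 := by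
  have hp2 : p ≠ 2 := by
    rintro rfl
    have h1 : 2 ∣ 2 ^ k := dvd_pow_self 2 (by omega)
    have hn : n ≠ 0 := by
      rintro rfl
      have : 0 < 2 ^ k := by positivity
      omega
    have h2 : 2 ∣ 2 ^ n := dvd_pow_self 2 hn
    omega
  have hodd : Odd p := hp.odd_of_ne_two hp2
  have hp3 : 3 ≤ p := by
    have := hp.two_le
    rcases Nat.lt_or_ge p 3 with h3 | h3
    · omega
    · exact h3
  have hpk : p ≤ p ^ k := Nat.le_self_pow (by omega) p
  have hn2 : 2 ≤ n := by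
    by_contra hlt
    push Not at hlt
    interval_cases n <;> omega
  rcases Nat.even_or_odd k with hk2 | hk2
  · exfalso
    obtain ⟨j, hj⟩ := hk2
    rw [hj, ← two_mul, mul_comm, pow_mul] at h
    have h4 : (4 : ℕ) ∣ 2 ^ n := by
      have : (4 : ℕ) = 2 ^ 2 := by norm_num
      rw [this]; exact pow_dvd_pow 2 hn2
    obtain ⟨m, hm⟩ := hodd.pow (n := j)
    rw [← h, hm] at h4
    have : (2 * m + 1) ^ 2 + 1 = 4 * (m ^ 2 + m) + 2 := by ring
    rw [this] at h4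
    omega
  · have hd : p + 1 ∣ 2 ^ n := by
      rw [← h]
      have := hk2.nat_add_dvd_pow_add_pow p 1
      rwa [one_pow] at this
    obtain ⟨a, ha, hpa⟩ := (Nat.dvd_prime_pow Nat.prime_two).mp hd
    have ha1 : 1 ≤ a := by
      rcases Nat.eq_zero_or_pos a with h0 | h0
      · rw [h0] at hpa; omega
      · exact h0
    have h1 := (odd_pow_mod ha1 p k (Or.inl hpa) hk2).add_right 1
    rw [h, hpa] at h1
    rcases Nat.eq_or_lt_of_le ha with h2 | h2
    · rw [← h2, ← hpa] at h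
      have h3 : p ^ k = p ^ 1 := by rw [pow_one]; omega
      exact Nat.pow_right_injective hp.two_le h3
    · exfalso
      have h3 : 2 ^ (a + 1) ∣ 2 ^ n := pow_dvd_pow 2 h2
      have h4 : 2 ^ (a + 1) ∣ 2 ^ a := (h1.dvd_iff (dvd_refl _)).mp h3
      have h5 := Nat.le_of_dvd (by positivity) h4
      have h6 : 2 ^ (a + 1) = 2 * 2 ^ a := by ring
      have h7 : 0 < 2 ^ a := by positivity
      omega

theorem fermat_pow {q n k : ℕ} (hq : q.Prime) (hn : 1 ≤ n) (h : q ^ n = 2 ^ k + 1) (hk : 1 ≤ k) :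
    n = 1 ∨ (q = 3 ∧ n = 2) := by
  have hodd : Odd q := by
    apply hq.odd_of_ne_two
    rintro rfl
    have h1 : 2 ∣ 2 ^ n := dvd_pow_self 2 (by omega)
    have h2 : 2 ∣ 2 ^ k := dvd_pow_self 2 (by omega)
    omega
  have hq2 := hq.two_le
  rcases Nat.even_or_odd n with hn2 | hn2
  · right
    obtain ⟨j, hj⟩ := hn2
    have hj1 : 1 ≤ j := by omega
    have hQ : 2 ≤ q ^ j := hq2.trans (Nat.le_self_pow (by omega) q)
    have h1 : (q ^ j - 1) * (q ^ j + 1) = 2 ^ k := by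
      obtain ⟨Q, hQ'⟩ : ∃ Q, q ^ j = Q + 1 := ⟨q ^ j - 1, by omega⟩
      rw [hj, pow_add, hQ'] at h
      rw [hQ']
      simp only [Nat.add_sub_cancel]
      nlinarith
    obtain ⟨a, ha, ha'⟩ := (Nat.dvd_prime_pow Nat.prime_two).mp (⟨_, h1.symm⟩ : q ^ j - 1 ∣ 2 ^ k)
    obtain ⟨b, hb, hb'⟩ := (Nat.dvd_prime_pow Nat.prime_two).mp (⟨_, by rw [mul_comm]; exact h1.symm⟩ : q ^ j + 1 ∣ 2 ^ k)
    have hab : 2 ^ b = 2 ^ a + 2 := by omega
    have ha1 : a = 1 := by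
      rcases Nat.lt_or_ge a 2 with h2 | h2
      · interval_cases a
        · exfalso
          have hb1 : b = 1 ∨ 2 ≤ b ∨ b = 0 := by omega
          rcases hb1 with rfl | h3 | rfl
          · omega
          · have : 4 ∣ 2 ^ b := by
              have : (4 : ℕ) = 2 ^ 2 := by norm_num
              rw [this]; exact pow_dvd_pow 2 h3
            omega
          · omega
        · rfl
      · exfalso
        have h4 : 4 ∣ 2 ^ a := by
          have : (4 : ℕ) = 2 ^ 2 := by norm_num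
          rw [this]; exact pow_dvd_pow 2 h2
        have hb2 : 2 ≤ b := by
          by_contra hlt
          have : 0 < 2 ^ a := by positivity
          interval_cases b <;> omega
        have h5 : 4 ∣ 2 ^ b := by
          have : (4 : ℕ) = 2 ^ 2 := by norm_num
          rw [this]; exact pow_dvd_pow 2 hb2
        omega
    have h3 : q ^ j = 3 := by rw [ha1] at ha'; omega
    have hj' : j = 1 := by
      by_contra hne
      have hj2 : 2 ≤ j := by omega
      have : 2 ^ 2 ≤ q ^ j := (Nat.pow_le_pow_left hq2 2).trans (Nat.pow_le_pow_right (by omega) hj2)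
      omega
    rw [hj', pow_one] at h3
    exact ⟨h3, by omega⟩
  · left
    have hd : q - 1 ∣ 2 ^ k := by
      have h1 : q ^ n - 1 ^ n = 2 ^ k := by rw [one_pow, h, Nat.add_sub_cancel]
      rw [← h1]
      exact Nat.sub_dvd_pow_sub_pow q 1 n
    obtain ⟨a, ha, hpa⟩ := (Nat.dvd_prime_pow Nat.prime_two).mp hd
    have hqa : q = 2 ^ a + 1 := by omega
    have ha1 : 1 ≤ a := by
      rcases Nat.eq_zero_or_pos a with h0 | h0
      · rw [h0] at hqa
        rw [hqa] at hodd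
        exact absurd hodd (by decide)
      · exact h0
    have h1 := odd_pow_mod ha1 q n (Or.inr hqa) hn2
    rw [h] at h1
    rw [hqa] at h1
    have h1' : 2 ^ k ≡ 2 ^ a [MOD 2 ^ (a + 1)] := Nat.ModEq.add_right_cancel' 1 h1
    rcases Nat.eq_or_lt_of_le ha with h2 | h2
    · rw [← h2, ← hqa] at h
      have h3 : q ^ n = q ^ 1 := by rw [pow_one]; exact h
      exact Nat.pow_right_injective hq2 h3
    · exfalso
      have h3 : 2 ^ (a + 1) ∣ 2 ^ k := pow_dvd_pow 2 h2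
      have h4 : 2 ^ (a + 1) ∣ 2 ^ a := (h1'.dvd_iff (dvd_refl _)).mp h3
      have h5 := Nat.le_of_dvd (by positivity) h4
      have h6 : 2 ^ (a + 1) = 2 * 2 ^ a := by ring
      have h7 : 0 < 2 ^ a := by positivity
      omega

end H60.NumPow
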