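import Cfsg.Agent.Lib.H34.SpWB

/-!
# S5707: an element of the normaliser of the Clifford space outside of the tensor wreath stabiliser
-/

set_option autoImplicit false
set_option linter.all false

namespace H60.SpWE

open Matrix Cfsg.Geo H34.SpW

variable {F : Type*} [Field F] {ι : Type} [Fintype ι] [DecidableEq ι]
variable {k t : ℕ} {Q : (ι → F) → F} {f : (Fin k → F) → (Fin k → F) → F} {H : Subgroup (GL ι F)}

theorem prod_two {i j : Fin t} (hij : i ≠ j) (G : Fin t → F) :
    ∏ l, G l = G i * (G j * ∏ l ∈ (Finset.univ.erase i).erase j, G l) := by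
  rw [← Finset.mul_prod_erase Finset.univ G (Finset.mem_univ i),
    ← Finset.mul_prod_erase (Finset.univ.erase i) G (Finset.mem_erase.2 ⟨hij.symm, Finset.mem_univ j⟩)]

theorem prod_adj (X : Matrix (Fin k) (Fin k) F) (hadj : ∀ u v, f (X *ᵥ u) v = f u (X *ᵥ v)) (i : Fin t)
    (x y : Fin t → Fin k → F) :
    ∏ l, f (Function.update x i (X *ᵥ x i) l) (y l) = ∏ l, f (x l) (Function.update y i (X *ᵥ y i) l) := by
  apply Finset.prod_congr rfl
  intro l _
  by_cases hl : l = i
  · subst hl; rw [Function.update_self, Function.update_self, hadj]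
  · rw [Function.update_of_ne hl, Function.update_of_ne hl]

theorem phi_adj (hQ : IsNondegenerateQuadraticForm Q) (S : TS k t Q f H) (X : Matrix (Fin k) (Fin k) F)
    (hadj : ∀ u v, f (X *ᵥ u) v = f u (X *ᵥ v)) (i : Fin t) (u v : ι → F) :
    QuadraticMap.polar Q (S.φ i X *ᵥ u) v = QuadraticMap.polar Q u (S.φ i X *ᵥ v) := by
  refine B_adj hQ S.span _ _ ?_ u v
  rintro _ ⟨x, rfl⟩ _ ⟨y, rfl⟩
  rw [S.hφ, S.hφ, S.pol, S.pol, prod_adj X hadj]

theorem T_zero (S : TS k t Q f H) (i : Fin t) (x : Fin t → Fin k → F) (hx : x i = 0) : S.T x = 0 := by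
  have h1 := S.hφ i 0 x
  rw [map_zero, zero_mulVec, zero_mulVec, ← hx, Function.update_eq_self] at h1
  exact h1.symm

theorem unit_iso (hQ : IsNondegenerateQuadraticForm Q) (h2 : (2 : F) = 0) (S : TS k t Q f H) {Z : Matrix ι ι F} (hZ : Z * Z = 0)
    (hadj : ∀ u v, QuadraticMap.polar Q (Z *ᵥ u) v = QuadraticMap.polar Q u (Z *ᵥ v))
    (h1 : ∀ x, Q ((1 + Z) *ᵥ S.T x) = 0) (hw : (1 + Z) * (1 + Z) = 1) :
    unit (1 + Z) hw ∈ Cfsg.isometryGroup F Q := by
  have h3 := iso_of hQ S.span (1 + Z) (by
    rintro _ ⟨x, rfl⟩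
    rw [h1, S.sing]) (B_one_add hQ h2 Z hZ hadj)
  intro u v
  exact h3 u

theorem exE (h2 : (2:F) = 0) (hQ : IsNondegenerateQuadraticForm Q) (hf : IsSymplecticForm f) (ht : 2 ≤ t) (S : TS k t Q f H) (D : KD k t f) : ∃ g ∈ omegaGL Q, g ∈ NW S D ∧ g ∉ H := by
  let i : Fin t := ⟨0, by omega⟩
  let j : Fin t := ⟨1, by omega⟩
  have hij : i ≠ j := by
    intro h
    have := congrArg Fin.val h
    simp [i, j] at this
  have hB := hQ.polar_bilinear
  set Z := S.φ i D.E + S.φ j D.E with hZdef
  set Z' := S.φ i D.E' with hZ'def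
  have hZ : Z * Z = 0 := by
    have e1 : S.φ i D.E * S.φ i D.E = 0 := by rw [← map_mul, D.EE, map_zero]
    have e2 : S.φ j D.E * S.φ j D.E = 0 := by rw [← map_mul, D.EE, map_zero]
    rw [hZdef, mul_add, add_mul, add_mul, e1, e2, φ_comm S hij, zero_add, add_zero]
    exact two_v h2 _
  have hZ' : Z' * Z' = 0 := by rw [hZ'def, ← map_mul, D.EE', map_zero]
  have hone : ∀ Y : Matrix ι ι F, Y * Y = 0 → (1 + Y) * (1 + Y) = 1 := by
    intro Y hY
    rw [mul_add, add_mul, add_mul, one_mul, one_mul, mul_one, hY, add_zero, add_assoc, two_v h2 Y, add_zero]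
  have hw := hone Z hZ
  have hw' := hone Z' hZ'
  have hadj : ∀ u v, QuadraticMap.polar Q (Z *ᵥ u) v = QuadraticMap.polar Q u (Z *ᵥ v) := by
    intro u v
    rw [hZdef, add_mulVec, add_mulVec, hB.add_left, hB.add_right, phi_adj hQ S _ D.adjE, phi_adj hQ S _ D.adjE]
  have hadj' : ∀ u v, QuadraticMap.polar Q (Z' *ᵥ u) v = QuadraticMap.polar Q u (Z' *ᵥ v) := by
    intro u v
    rw [hZ'def, phi_adj hQ S _ D.adjE']
  have hwT : ∀ x, (1 + Z) *ᵥ S.T x = S.T x + (S.T (Function.update x i (D.E *ᵥ x i)) + S.T (Function.update x j (D.E *ᵥ x j))) := by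
    intro x
    rw [add_mulVec, one_mulVec, hZdef, add_mulVec, S.hφ, S.hφ]
  have hw'T : ∀ x, (1 + Z') *ᵥ S.T x = S.T x + S.T (Function.update x i (D.E' *ᵥ x i)) := by
    intro x
    rw [add_mulVec, one_mulVec, hZ'def, S.hφ]
  have hpz : ∀ (x y : Fin t → Fin k → F) (l : Fin t), f (x l) (y l) = 0 → QuadraticMap.polar Q (S.T x) (S.T y) = 0 := by
    intro x y l hl
    rw [S.pol, Finset.prod_eq_zero (Finset.mem_univ l) hl, mul_zero]
  have hq : ∀ x, Q ((1 + Z) *ᵥ S.T x) = 0 := by
    intro x
    rw [hwT, Q_add Q, Q_add Q, S.sing, S.sing, S.sing, hB.add_right]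
    have e1 : QuadraticMap.polar Q (S.T x) (S.T (Function.update x i (D.E *ᵥ x i))) = 0 := by
      apply hpz _ _ j
      rw [Function.update_of_ne hij.symm]
      exact hf.alternating _
    have e2 : QuadraticMap.polar Q (S.T x) (S.T (Function.update x j (D.E *ᵥ x j))) = 0 := by
      apply hpz _ _ i
      rw [Function.update_of_ne hij]
      exact hf.alternating _
    have e3 : QuadraticMap.polar Q (S.T (Function.update x i (D.E *ᵥ x i))) (S.T (Function.update x j (D.E *ᵥ x j))) = 0 := by
      rcases D.alt with h3 | h3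
      · let l : Fin t := ⟨2, by omega⟩
        have hli : l ≠ i := by
          intro h
          have := congrArg Fin.val h
          simp [i, l] at this
        have hlj : l ≠ j := by
          intro h
          have := congrArg Fin.val h
          simp [j, l] at this
        apply hpz _ _ l
        rw [Function.update_of_ne hli, Function.update_of_ne hlj]
        exact hf.alternating _
      · apply hpz _ _ i
        rw [Function.update_self, Function.update_of_ne hij]
        exact h3 _
    rw [e1, e2, e3]; ring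
  have hq' : ∀ x, Q ((1 + Z') *ᵥ S.T x) = 0 := by
    intro x
    rw [hw'T, Q_add Q, S.sing, S.sing]
    have e1 : QuadraticMap.polar Q (S.T x) (S.T (Function.update x i (D.E' *ᵥ x i))) = 0 := by
      apply hpz _ _ j
      rw [Function.update_of_ne hij.symm]
      exact hf.alternating _
    rw [e1]; ring
  have hI := unit_iso hQ h2 S hZ hadj hq hw
  have hI' := unit_iso hQ h2 S hZ' hadj' hq' hw'
  have hinv : ∀ (w : Matrix ι ι F) (hw : w * w = 1), (unit w hw)⁻¹ = unit w hw := by
    intro w hw
    apply inv_eq_of_mul_eq_one_right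
    apply Units.ext
    exact hw
  refine ⟨unit (1 + Z) hw * unit (1 + Z') hw' * unit (1 + Z) hw * unit (1 + Z') hw', ?_, ?_, ?_⟩
  · let a : Cfsg.isometryGroup F Q := ⟨_, hI⟩
    let b : Cfsg.isometryGroup F Q := ⟨_, hI'⟩
    refine ⟨a * b * a⁻¹ * b⁻¹, ?_, ?_⟩
    · exact Subgroup.commutator_mem_commutator (Subgroup.mem_top a) (Subgroup.mem_top b)
    · change unit (1 + Z) hw * unit (1 + Z') hw' * (unit (1 + Z) hw)⁻¹ * (unit (1 + Z') hw')⁻¹ = _
      rw [hinv, hinv]
  · have m1 : unit (1 + Z) hw ∈ NW S D := by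
      apply unit_mem h2
      exact Submodule.add_mem _ (W_one S D) (Submodule.add_mem _ (mem_W S D i D.hE) (mem_W S D j D.hE))
    have m2 : unit (1 + Z') hw' ∈ NW S D := by
      apply unit_mem h2
      exact Submodule.add_mem _ (W_one S D) (mem_W S D i D.hE')
    exact mul_mem (mul_mem (mul_mem m1 m2) m1) m2
  · intro hg
    obtain ⟨A, σ, hA⟩ := S.wr _ hg
    let x : Fin t → Fin k → F := fun _ => D.p
    let q : Fin k → F := D.E *ᵥ D.p
    have hE'q : D.E' *ᵥ q = D.p := by
      have h1 : (D.E * D.E' + D.E' * D.E) *ᵥ D.p = D.p := by rw [D.EEone, one_mulVec]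
      rw [add_mulVec, ← mulVec_mulVec, ← mulVec_mulVec, D.E'p, mulVec_zero, zero_add] at h1
      exact h1
    have hEq : D.E *ᵥ q = 0 := by
      change D.E *ᵥ (D.E *ᵥ D.p) = 0
      rw [mulVec_mulVec, D.EE, zero_mulVec]
    let x0 : Fin t → Fin k → F := Function.update x i q
    let x1 : Fin t → Fin k → F := Function.update x j q
    have s1 : (1 + Z') *ᵥ S.T x = S.T x := by
      rw [hw'T, T_zero S i (Function.update x i (D.E' *ᵥ x i)) (by rw [Function.update_self]; exact D.E'p), add_zero]
    have s2 : (1 + Z) *ᵥ S.T x = S.T x + (S.T x0 + S.T x1) := hwT x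
    have s3 : (1 + Z') *ᵥ S.T x0 = S.T x0 + S.T x := by
      rw [hw'T]
      congr 2
      have e1 : x0 i = q := Function.update_self _ _ _
      rw [e1, hE'q]
      change Function.update (Function.update x i q) i D.p = x
      rw [Function.update_idem]
      exact Function.update_eq_self i x
    have s4 : (1 + Z') *ᵥ S.T x1 = S.T x1 := by
      rw [hw'T, T_zero S i (Function.update x1 i (D.E' *ᵥ x1 i)) (by
        rw [Function.update_self]
        change D.E' *ᵥ (Function.update x j q i) = 0
        rw [Function.update_of_ne hij]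
        exact D.E'p), add_zero]
    have s5 : (1 + Z) *ᵥ S.T x0 = S.T x0 + S.T (Function.update x0 j q) := by
      rw [hwT]
      have e1 : x0 i = q := Function.update_self _ _ _
      have e2 : x0 j = D.p := Function.update_of_ne hij.symm _ _
      rw [e1, e2, T_zero S i (Function.update x0 i (D.E *ᵥ q)) (by rw [Function.update_self]; exact hEq), zero_add]
    have s6 : (1 + Z) *ᵥ S.T x1 = S.T x1 + S.T (Function.update x0 j q) := by
      rw [hwT]
      have e1 : x1 j = q := Function.update_self _ _ _
      have e2 : x1 i = D.p := Function.update_of_ne hij _ _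
      rw [e1, e2, T_zero S j (Function.update x1 j (D.E *ᵥ q)) (by rw [Function.update_self]; exact hEq), add_zero]
      congr 2
      change Function.update (Function.update x j q) i q = Function.update (Function.update x i q) j q
      rw [Function.update_comm hij]
    have s7 : (1 + Z) *ᵥ ((1 + Z') *ᵥ ((1 + Z) *ᵥ ((1 + Z') *ᵥ S.T x))) = S.T x0 + S.T x1 := by
      have t1 : (1 + Z') *ᵥ (S.T x + (S.T x0 + S.T x1)) = S.T x + (S.T x0 + S.T x + S.T x1) := by
        rw [mulVec_add, mulVec_add, s1, s3, s4]
      rw [s1, s2, t1]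
      have e1 : S.T x + (S.T x0 + S.T x + S.T x1) = S.T x0 + S.T x1 := by
        have := two_v h2 (S.T x)
        calc S.T x + (S.T x0 + S.T x + S.T x1) = (S.T x + S.T x) + (S.T x0 + S.T x1) := by abel
          _ = _ := by rw [this, zero_add]
      rw [e1, mulVec_add, s5, s6]
      have := two_v h2 (S.T (Function.update x0 j q))
      calc S.T x0 + S.T (Function.update x0 j q) + (S.T x1 + S.T (Function.update x0 j q)) =
          (S.T x0 + S.T x1) + (S.T (Function.update x0 j q) + S.T (Function.update x0 j q)) := by abel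
        _ = _ := by rw [this, add_zero]
    have hgx := hA x
    have hval : ((unit (1 + Z) hw * unit (1 + Z') hw' * unit (1 + Z) hw * unit (1 + Z') hw' : GL ι F) : Matrix ι ι F) *ᵥ S.T x = S.T x0 + S.T x1 := by
      rw [← s7]
      change ((1 + Z) * (1 + Z') * (1 + Z) * (1 + Z')) *ᵥ S.T x = _
      rw [← mulVec_mulVec, ← mulVec_mulVec, ← mulVec_mulVec]
    rw [hval] at hgx
    set y : Fin t → Fin k → F := fun l => (A l : Matrix (Fin k) (Fin k) F) *ᵥ x (σ l) with hy
    let z : (Fin k → F) → (Fin k → F) → (Fin t → Fin k → F) := fun u v l => if l = i then u else if l = j then v else D.a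
    have hzi : ∀ u v, z u v i = u := fun u v => if_pos rfl
    have hzj : ∀ u v, z u v j = v := fun u v => by
      change (if j = i then u else if j = j then v else D.a) = v
      rw [if_neg hij.symm, if_pos rfl]
    have hzl : ∀ u v l, l ∈ (Finset.univ.erase i).erase j → z u v l = D.a := by
      intro u v l hl
      rw [Finset.mem_erase, Finset.mem_erase] at hl
      change (if l = i then u else if l = j then v else D.a) = D.a
      rw [if_neg hl.2.1, if_neg hl.1]
    set r : F := ∏ l ∈ (Finset.univ.erase i).erase j, f (y l) D.a with hr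
    have key : ∀ u v, f q u * f D.p v + f D.p u * f q v = f (y i) u * (f (y j) v * r) := by
      intro u v
      have h1 : QuadraticMap.polar Q (S.T x0 + S.T x1) (S.T (z u v)) = QuadraticMap.polar Q (S.T y) (S.T (z u v)) := by
        rw [hgx]
      rw [hB.add_left, S.pol, S.pol, S.pol, ← mul_add] at h1
      have h3 := mul_left_cancel₀ S.hc h1
      rw [prod_two hij, prod_two hij, prod_two hij] at h3
      have p1 : ∏ l ∈ (Finset.univ.erase i).erase j, f (x0 l) (z u v l) = 1 := by
        apply Finset.prod_eq_one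
        intro l hl
        rw [hzl u v l hl]
        rw [Finset.mem_erase, Finset.mem_erase] at hl
        change f (Function.update x i q l) D.a = 1
        rw [Function.update_of_ne hl.2.1]
        exact D.fpa
      have p2 : ∏ l ∈ (Finset.univ.erase i).erase j, f (x1 l) (z u v l) = 1 := by
        apply Finset.prod_eq_one
        intro l hl
        rw [hzl u v l hl]
        rw [Finset.mem_erase, Finset.mem_erase] at hl
        change f (Function.update x j q l) D.a = 1
        rw [Function.update_of_ne hl.1]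
        exact D.fpa
      have p3 : ∏ l ∈ (Finset.univ.erase i).erase j, f (y l) (z u v l) = r := by
        apply Finset.prod_congr rfl
        intro l hl
        rw [hzl u v l hl]
      have x0i : x0 i = q := Function.update_self _ _ _
      have x0j : x0 j = D.p := Function.update_of_ne hij.symm _ _
      have x1j : x1 j = q := Function.update_self _ _ _
      have x1i : x1 i = D.p := Function.update_of_ne hij _ _
      rw [p1, p2, p3, hzi, hzj, x0i, x0j, x1i, x1j, mul_one, mul_one] at h3
      exact h3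
    have k1 := key D.a D.a
    have k2 := key D.b D.b
    have k3 := key D.a D.b
    have k4 := key D.b D.a
    have fqa : f q D.a = 0 := D.fqa
    have fqb : f q D.b = 1 := D.fqb
    rw [fqa, D.fpa] at k1
    rw [fqb, D.fpb] at k2
    rw [fqa, D.fpa, D.fpb, fqb] at k3
    rw [fqa, D.fpa, D.fpb, fqb] at k4
    have h9 : (1 : F) = 0 := by
      linear_combination (k3 * 1) + k4 * (f (y i) D.a * (f (y j) D.b * r)) - k1 * (f (y i) D.b * (f (y j) D.b * r))
    exact one_ne_zero h9

end H60.SpWE
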